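import Cfsg.Agent.Lib.SuzInv.Defs

/-!
# Linear algebra of the elliptic space of dimension 6 over `𝔽₂`
-/

set_option autoImplicit false
set_option linter.unusedSectionVars false
set_option linter.unusedVariables false
set_option maxRecDepth 100000

namespace Cfsg.Agent.Lib.SuzInv.Basic

open Cfsg Matrix Cfsg.Agent.Lib.SuzInv.Defs

theorem act_one (v : V) : act 1 v = v := by
  simp [act]

theorem act_mul (g h : OO) (v : V) : act (g * h) v = act g (act h v) := by
  simp [act, Matrix.mulVec_mulVec]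

theorem act_add (g : OO) (u v : V) : act g (u + v) = act g u + act g v := by
  simp [act, Matrix.mulVec_add]

theorem act_zero (g : OO) : act g 0 = 0 := by
  simp [act]

theorem q_act (g : OO) (v : V) : qV (act g v) = qV v :=
  g.2 v v

theorem act_ext {g h : OO} (H : ∀ v, act g v = act h v) : g = h := by
  apply Subtype.ext
  apply Units.ext
  apply Matrix.ext_of_mulVec_single
  intro i
  exact H _

theorem act_inv (g : OO) (v : V) : act g⁻¹ (act g v) = v := by
  rw [← act_mul, inv_mul_cancel, act_one]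

theorem act_inv' (g : OO) (v : V) : act g (act g⁻¹ v) = v := by
  rw [← act_mul, mul_inv_cancel, act_one]

/-- Names of the coordinates. -/
abbrev x0 : Idx := Sum.inl (Sum.inl 0)
abbrev x1 : Idx := Sum.inl (Sum.inl 1)
abbrev y0 : Idx := Sum.inl (Sum.inr 0)
abbrev y1 : Idx := Sum.inl (Sum.inr 1)
abbrev z0 : Idx := Sum.inr 0
abbrev z1 : Idx := Sum.inr 1

theorem bV_explicit : ∀ u v : V, bV u v = u x0 * v y0 + u y0 * v x0 + u x1 * v y1 + u y1 * v x1 + u z0 * v z1 + u z1 * v z0 := by
  decide +kernel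

theorem bV_comm (u v : V) : bV u v = bV v u := by
  rw [bV_explicit, bV_explicit]; ring

theorem zmod2_add_self (a : ZMod 2) : a + a = 0 := by
  revert a; decide

theorem zmod2_cases (a : ZMod 2) : a = 0 ∨ a = 1 := by
  revert a; decide

theorem bV_add_left (u u' v : V) : bV (u + u') v = bV u v + bV u' v := by
  simp only [bV_explicit, Pi.add_apply]; ring

theorem bV_add_right (u v v' : V) : bV u (v + v') = bV u v + bV u v' := by
  simp only [bV_explicit, Pi.add_apply]; ring

theorem bV_self : ∀ u : V, bV u u = 0 := by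
  decide +kernel

theorem bV_zero_left (v : V) : bV 0 v = 0 := by
  simp [bV_explicit]

theorem bV_zero_right (v : V) : bV v 0 = 0 := by
  simp [bV_explicit]

theorem qV_add (u v : V) : qV (u + v) = qV u + qV v + bV u v := by
  have h : bV u v = qV (u + v) + qV u + qV v := rfl
  rw [h]
  linear_combination (- (qV u) - qV v) * (0 : ZMod 2) - zmod2_add_self (qV u) - zmod2_add_self (qV v)

theorem b_act (g : OO) (u v : V) : bV (act g u) (act g v) = bV u v := by
  show qV (act g u + act g v) + qV (act g u) + qV (act g v) = qV (u + v) + qV u + qV v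
  rw [← act_add, q_act, q_act, q_act]

theorem V_add_self (v : V) : v + v = 0 := by
  funext i
  exact zmod2_add_self _

theorem V_eq_of_add_eq_zero {u v : V} (h : u + v = 0) : u = v := by
  have : u = u + v + v := by rw [add_assoc, V_add_self, add_zero]
  rw [this, h, zero_add]

/-- The chosen singular vector. -/
def τ₀ : V := Pi.single x0 1
/-- Its partner. -/
def v₁ : V := Pi.single y0 1

theorem q_τ₀ : qV τ₀ = 0 := by decide +kernel
theorem q_v₁ : qV v₁ = 0 := by decide +kernel
theorem b_τ₀_v₁ : bV τ₀ v₁ = 1 := by decide +kernel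
theorem τ₀_ne : τ₀ ≠ 0 := by decide +kernel

theorem b_τ₀ : ∀ u : V, bV u τ₀ = u y0 := by decide +kernel

/-- The quotient `τ₀^⊥/τ₀`. -/
abbrev W := ZMod 2 × ZMod 2 × ZMod 2 × ZMod 2

/-- The form on `W`. -/
def qW (w : W) : ZMod 2 := w.1 * w.2.1 + (w.2.2.1 ^ 2 + 1 * w.2.2.1 * w.2.2.2 + 1 * w.2.2.2 ^ 2)
/-- The polar form on `W`. -/
def bW (u v : W) : ZMod 2 := u.1 * v.2.1 + u.2.1 * v.1 + u.2.2.1 * v.2.2.2 + u.2.2.2 * v.2.2.1

/-- The projection. -/
def PP (v : V) : W := (v x1, v y1, v z0, v z1)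
/-- A section. -/
def inj (w : W) : V := Sum.elim (Sum.elim ![0, w.1] ![0, w.2.1]) ![w.2.2.1, w.2.2.2]

theorem PP_add (u v : V) : PP (u + v) = PP u + PP v := rfl

theorem PP_τ₀ : PP τ₀ = 0 := by decide +kernel
theorem PP_v₁ : PP v₁ = 0 := by decide +kernel
theorem PP_inj : ∀ w, PP (inj w) = w := by decide +kernel
theorem inj_y0 : ∀ w, inj w y0 = 0 := by decide +kernel
theorem inj_add : ∀ u v : W, inj (u + v) = inj u + inj v := by decide +kernel

theorem per_q : ∀ u : V, u y0 = 0 → qV u = qW (PP u) := by decide +kernel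
theorem per_b : ∀ u v : V, u y0 = 0 → v y0 = 0 → bV u v = bW (PP u) (PP v) := by decide +kernel
theorem per_ker0 : ∀ u : V, (u y0 = 0 ∧ PP u = 0) → u = 0 ∨ u = τ₀ := by decide +kernel
theorem per_ker (u : V) (h1 : u y0 = 0) (h2 : PP u = 0) : u = 0 ∨ u = τ₀ := per_ker0 u ⟨h1, h2⟩
theorem per_dec : ∀ u : V, u y0 = 0 ∨ (u + v₁) y0 = 0 := by decide +kernel
theorem b_inj : ∀ (u : V) (w : W), u y0 = 0 → bV u (inj w) = bW (PP u) w := by decide +kernel
theorem q_inj : ∀ w : W, qV (inj w) = qW w := by decide +kernel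
theorem PP_eq0 : ∀ u v : V, (u y0 = 0 ∧ v y0 = 0 ∧ PP u = PP v) → u = v ∨ u = v + τ₀ := by decide +kernel
theorem PP_eq (u v : V) (h1 : u y0 = 0) (h2 : v y0 = 0) (h3 : PP u = PP v) : u = v ∨ u = v + τ₀ := PP_eq0 u v ⟨h1, h2, h3⟩

theorem bW_comm : ∀ u v : W, bW u v = bW v u := by decide +kernel
theorem bW_add_left (u u' v : W) : bW (u + u') v = bW u v + bW u' v := by
  simp only [bW, Prod.fst_add, Prod.snd_add]; ring
theorem bW_add_right (u v v' : W) : bW u (v + v') = bW u v + bW u v' := by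
  simp only [bW, Prod.fst_add, Prod.snd_add]; ring
theorem qW_add : ∀ u v : W, qW (u + v) = qW u + qW v + bW u v := by decide +kernel
theorem bW_nondeg : ∀ u : W, (∀ v, bW u v = 0) → u = 0 := by decide +kernel
theorem W_add_self : ∀ u : W, u + u = 0 := by decide +kernel

/-! ### Stabiliser of `τ₀`, the Siegel group -/

/-- Elements acting trivially on `τ₀^⊥/τ₀`. -/
def IsA (s : OO) : Prop := act s τ₀ = τ₀ ∧ ∀ u : V, u y0 = 0 → act s u + u = 0 ∨ act s u + u = τ₀

/-- The label vector of `s`. -/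
def dl (s : OO) : V := act s v₁ + v₁

theorem dl_y0 {s : OO} (h : act s τ₀ = τ₀) : dl s y0 = 0 := by
  rw [← b_τ₀ (dl s)]
  show bV (act s v₁ + v₁) τ₀ = 0
  rw [bV_add_left]
  nth_rewrite 1 [← h]
  rw [b_act, zmod2_add_self]

theorem act_per {s : OO} (h : act s τ₀ = τ₀) {u : V} (hu : u y0 = 0) : act s u y0 = 0 := by
  rw [← b_τ₀ (act s u)]
  nth_rewrite 1 [← h]
  rw [b_act, b_τ₀, hu]

theorem IsA.act_eq {s : OO} (h : IsA s) {u : V} (hu : u y0 = 0) : act s u = u + bV u (dl s) • τ₀ := by
  have hb := b_act s u v₁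
  have hs : act s v₁ = v₁ + dl s := by
    show act s v₁ = v₁ + (act s v₁ + v₁)
    rw [add_comm v₁, add_assoc, V_add_self, add_zero]
  have hbτ : bV τ₀ (dl s) = 0 := by
    rw [bV_comm, b_τ₀, dl_y0 h.1]
  rcases h.2 u hu with h1 | h1
  · have e : act s u = u := V_eq_of_add_eq_zero h1
    rw [e, hs, bV_add_right] at hb
    have h0 : bV u (dl s) = 0 := by
      have key : ∀ a b : ZMod 2, a + b = a → b = 0 := by decide
      exact key _ _ hb
    rw [e, h0, zero_smul, add_zero]
  · have e : act s u = u + τ₀ := by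
      have : act s u = act s u + u + u := by rw [add_assoc, V_add_self, add_zero]
      rw [this, h1, add_comm]
    rw [e, hs, bV_add_left, bV_add_right, bV_add_right, hbτ, b_τ₀_v₁] at hb
    have h0 : bV u (dl s) = 1 := by
      have key : ∀ a b : ZMod 2, a + b + (1 + 0) = a → b = 1 := by decide
      exact key _ _ hb
    rw [e, h0, one_smul]

theorem IsA.eq_of_dl {s s' : OO} (h : IsA s) (h' : IsA s') (hd : PP (dl s) = PP (dl s')) : s = s' := by
  have hd1 : dl s = dl s' := by
    rcases PP_eq _ _ (dl_y0 h.1) (dl_y0 h'.1) hd with e | e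
    · exact e
    · exfalso
      -- the values of `q`
      have h1 : act s v₁ = act s' v₁ + τ₀ := by
        have : act s v₁ = dl s + v₁ := by
          show act s v₁ = act s v₁ + v₁ + v₁
          rw [add_assoc, V_add_self, add_zero]
        rw [this, e]
        show act s' v₁ + v₁ + τ₀ + v₁ = _
        rw [add_right_comm, add_assoc (act s' v₁), V_add_self, add_zero]
      have h2 := q_act s v₁
      rw [h1, qV_add, q_act, q_v₁, q_τ₀] at h2
      have h3 : bV (act s' v₁) τ₀ = 1 := by
        nth_rewrite 1 [← h'.1]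
        rw [b_act, bV_comm, b_τ₀_v₁]
      rw [h3] at h2
      revert h2
      decide
  apply act_ext
  intro v
  have key : ∀ u : V, u y0 = 0 → act s u = act s' u := by
    intro u hu
    rw [h.act_eq hu, h'.act_eq hu, hd1]
  have hv₁ : act s v₁ = act s' v₁ := by
    have h1 : act s v₁ = dl s + v₁ := by
      show act s v₁ = act s v₁ + v₁ + v₁
      rw [add_assoc, V_add_self, add_zero]
    have h2 : act s' v₁ = dl s' + v₁ := by
      show act s' v₁ = act s' v₁ + v₁ + v₁
      rw [add_assoc, V_add_self, add_zero]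
    rw [h1, h2, hd1]
  rcases per_dec v with hv | hv
  · exact key v hv
  · have e : v = (v + v₁) + v₁ := by rw [add_assoc, V_add_self, add_zero]
    have e2 : ∀ t : OO, act t v = act t (v + v₁) + act t v₁ := by
      intro t
      rw [← act_add, ← e]
    rw [e2 s, e2 s', key _ hv, hv₁]

theorem isA_one : IsA 1 := by
  refine ⟨act_one _, fun u _ => Or.inl ?_⟩
  rw [act_one, V_add_self]

theorem IsA.eq_one {s : OO} (h : IsA s) (hd : PP (dl s) = 0) : s = 1 := by
  apply h.eq_of_dl isA_one
  rw [hd]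
  show _ = PP (act 1 v₁ + v₁)
  rw [act_one, V_add_self]
  rfl

theorem IsA.mul {s s' : OO} (h : IsA s) (h' : IsA s') : IsA (s * s') := by
  refine ⟨by rw [act_mul, h'.1, h.1], fun u hu => ?_⟩
  rw [act_mul, h'.act_eq hu, act_add, h.act_eq hu]
  have e : ∀ c : ZMod 2, act s (c • τ₀) = c • τ₀ := by
    intro c
    rcases zmod2_cases c with rfl | rfl
    · rw [zero_smul, act_zero]
    · rw [one_smul, h.1]
  rw [e]
  rcases zmod2_cases (bV u (dl s)) with h1 | h1 <;> rcases zmod2_cases (bV u (dl s')) with h2 | h2 <;> rw [h1, h2]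
  · left; simp [V_add_self]
  · right; simp only [zero_smul, add_zero, one_smul]
    rw [add_right_comm, V_add_self, zero_add]
  · right; simp only [zero_smul, add_zero, one_smul]
    rw [add_right_comm, V_add_self, zero_add]
  · left; simp only [one_smul]
    funext i
    simp only [Pi.add_apply, Pi.zero_apply]
    have key : ∀ a b : ZMod 2, a + b + b + a = 0 := by decide
    exact key _ _

theorem IsA.dl_mul {s s' : OO} (h : IsA s) (h' : IsA s') : PP (dl (s * s')) = PP (dl s) + PP (dl s') := by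
  show PP (act (s * s') v₁ + v₁) = _
  have h1 : act s' v₁ = v₁ + dl s' := by
    show act s' v₁ = v₁ + (act s' v₁ + v₁)
    rw [add_comm v₁, add_assoc, V_add_self, add_zero]
  rw [act_mul, h1, act_add, h.act_eq (dl_y0 h'.1)]
  have h2 : PP (act s v₁ + (dl s' + bV (dl s') (dl s) • τ₀) + v₁) = PP (dl s) + PP (dl s') + PP (bV (dl s') (dl s) • τ₀) := by
    show PP _ = _
    have : act s v₁ + (dl s' + bV (dl s') (dl s) • τ₀) + v₁ = (act s v₁ + v₁) + dl s' + bV (dl s') (dl s) • τ₀ := by abel
    rw [this, PP_add, PP_add]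
    rfl
  rw [h2]
  have h3 : ∀ c : ZMod 2, PP (c • τ₀) = 0 := by
    intro c
    rcases zmod2_cases c with rfl | rfl
    · rw [zero_smul]; rfl
    · rw [one_smul, PP_τ₀]
  rw [h3, add_zero]

/-- A vector outside `τ₀^⊥` is moved by the label of `s`. -/
theorem IsA.moved {s : OO} (h : IsA s) {v : V} (hv : v y0 = 1) : PP (act s v + v) = PP (dl s) := by
  have h1 : (v + v₁) y0 = 0 := by
    show v y0 + v₁ y0 = 0
    rw [hv]
    decide +kernel
  have e : v = (v + v₁) + v₁ := by rw [add_assoc, V_add_self, add_zero]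
  have h2 : act s v + v = (act s (v + v₁) + (v + v₁)) + dl s := by
    show act s v + v = (act s (v + v₁) + (v + v₁)) + (act s v₁ + v₁)
    rw [act_add]
    funext i
    simp only [Pi.add_apply]
    have key : ∀ a b c d : ZMod 2, a + b = a + c + (b + d) + (c + d) := by decide
    exact key _ _ _ _
  rw [h2, PP_add]
  rcases h.2 _ h1 with h3 | h3
  · rw [h3]
    show (0 : W) + _ = _
    rw [zero_add]
  · rw [h3, PP_τ₀, zero_add]

/-! ### The action of the stabiliser on `W` -/

/-- The action on `W` of an element fixing `τ₀`. -/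
def Ac (s : OO) (w : W) : W := PP (act s (inj w))

theorem Ac_PP {s : OO} (h : act s τ₀ = τ₀) {u : V} (hu : u y0 = 0) : PP (act s u) = Ac s (PP u) := by
  rcases PP_eq u (inj (PP u)) hu (inj_y0 _) (PP_inj _).symm with e | e
  · show PP (act s u) = PP (act s (inj (PP u)))
    rw [← e]
  · show PP (act s u) = PP (act s (inj (PP u)))
    nth_rewrite 1 [e]
    rw [act_add, h, PP_add, PP_τ₀, add_zero]

theorem Ac_add (s : OO) (u v : W) : Ac s (u + v) = Ac s u + Ac s v := by
  show PP (act s (inj (u + v))) = _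
  rw [inj_add, act_add, PP_add]
  rfl

theorem Ac_b {s : OO} (h : act s τ₀ = τ₀) (u v : W) : bW (Ac s u) (Ac s v) = bW u v := by
  show bW (PP (act s (inj u))) (PP (act s (inj v))) = _
  rw [← per_b _ _ (act_per h (inj_y0 u)) (act_per h (inj_y0 v)), b_act, per_b _ _ (inj_y0 u) (inj_y0 v), PP_inj, PP_inj]

theorem Ac_q {s : OO} (h : act s τ₀ = τ₀) (u : W) : qW (Ac s u) = qW u := by
  show qW (PP (act s (inj u))) = _
  rw [← per_q _ (act_per h (inj_y0 u)), q_act, q_inj]

theorem Ac_mul {s s' : OO} (h : act s τ₀ = τ₀) (h' : act s' τ₀ = τ₀) (u : W) : Ac (s * s') u = Ac s (Ac s' u) := by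
  show PP (act (s * s') (inj u)) = _
  rw [act_mul, Ac_PP h (act_per h' (inj_y0 u))]
  rfl

theorem Ac_one (u : W) : Ac 1 u = u := by
  show PP (act 1 (inj u)) = _
  rw [act_one, PP_inj]

end Cfsg.Agent.Lib.SuzInv.Basic
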