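import Cfsg.Agent.Lib.SuzInv.OmFacts

/-!
# Suzuki type: the extraspecial group and the second involution
-/

set_option autoImplicit false
set_option linter.unusedSectionVars false
set_option linter.unusedVariables false
set_option maxRecDepth 100000

namespace Cfsg.Agent.Lib.SuzInv.Core

open Cfsg Matrix Cfsg.Agent.Lib.SuzInv.Defs Cfsg.Agent.Lib.SuzInv.Basic Cfsg.Agent.Lib.SuzInv.Refl
  Cfsg.Agent.Lib.SuzInv.OmFacts

variable {G : Type*} [Group G]

theorem pw_zero (a : G) : pw a 0 = 1 := by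
  classical
  simp [pw]

theorem pw_one (a : G) : pw a 1 = a := by
  classical
  have : (1 : ZMod 2) ≠ 0 := by decide
  simp [pw, this]

theorem pw_cases (a : G) (c : ZMod 2) : pw a c = 1 ∨ pw a c = a := by
  rcases zmod2_cases c with rfl | rfl
  · exact Or.inl (pw_zero a)
  · exact Or.inr (pw_one a)

theorem pw_add {a : G} (h : a * a = 1) (c d : ZMod 2) : pw a (c + d) = pw a c * pw a d := by
  rcases zmod2_cases c with rfl | rfl <;> rcases zmod2_cases d with rfl | rfl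
  · simp [pw_zero]
  · simp [pw_zero, pw_one]
  · simp [pw_zero, pw_one]
  · have : (1 : ZMod 2) + 1 = 0 := by decide
    rw [this, pw_zero, pw_one, h]

theorem pw_mul_self {a : G} (h : a * a = 1) (c : ZMod 2) : pw a c * pw a c = 1 := by
  rw [← pw_add h, zmod2_add_self, pw_zero]

theorem pw_comm {a b : G} (h : a * b = b * a) (c d : ZMod 2) : pw a c * pw b d = pw b d * pw a c := by
  rcases zmod2_cases c with rfl | rfl <;> rcases zmod2_cases d with rfl | rfl <;> simp [pw_zero, pw_one, h]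

section Q

variable {z : G} (S : Setup z)

theorem z_inv (S : Setup z) : z⁻¹ = z := inv_eq_of_mul_eq_one_left S.zz

theorem π_one : S.π 1 = 0 := (S.πker 1 S.Q.one_mem).2 (Or.inl rfl)

theorem π_z : S.π z = 0 := (S.πker z S.zQ).2 (Or.inr rfl)

theorem π_inv {x : G} (hx : x ∈ S.Q) : S.π x⁻¹ = S.π x := by
  have h := S.πmul x hx x⁻¹ (S.Q.inv_mem hx)
  rw [mul_inv_cancel, π_one] at h
  have h2 : S.π x + S.π x⁻¹ = 0 := h.symm
  exact (V_eq_of_add_eq_zero h2).symm

theorem z_comm_pw (c : ZMod 2) {x : G} (hx : x ∈ S.Q) : x * pw z c = pw z c * x := by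
  rcases pw_cases z c with h | h <;> rw [h]
  · simp
  · exact S.Qc x hx

theorem pw_z_mem (c : ZMod 2) : pw z c ∈ S.Q := by
  rcases pw_cases z c with h | h <;> rw [h]
  · exact S.Q.one_mem
  · exact S.zQ

/-- The commutator formula in `Q`. -/
theorem comm_Q {x y : G} (hx : x ∈ S.Q) (hy : y ∈ S.Q) : x * y * x⁻¹ * y⁻¹ = pw z (bV (S.π x) (S.π y)) := by
  set w := x * y * x⁻¹ * y⁻¹ with hw
  have hwQ : w ∈ S.Q := S.Q.mul_mem (S.Q.mul_mem (S.Q.mul_mem hx hy) (S.Q.inv_mem hx)) (S.Q.inv_mem hy)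
  have hπ : S.π w = 0 := by
    rw [hw, S.πmul _ (S.Q.mul_mem (S.Q.mul_mem hx hy) (S.Q.inv_mem hx)) _ (S.Q.inv_mem hy),
      S.πmul _ (S.Q.mul_mem hx hy) _ (S.Q.inv_mem hx), S.πmul _ hx _ hy, π_inv S hx, π_inv S hy]
    funext i
    simp only [Pi.add_apply, Pi.zero_apply]
    have key : ∀ a b : ZMod 2, a + b + a + b = 0 := by decide
    exact key _ _
  have hw2 : w = 1 ∨ w = z := (S.πker w hwQ).1 hπ
  have hww : w * w = 1 := by
    rcases hw2 with h | h <;> rw [h]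
    · simp
    · exact S.zz
  have hcen : ∀ u ∈ S.Q, u * w = w * u := by
    intro u hu
    rcases hw2 with h | h <;> rw [h]
    · simp
    · exact S.Qc u hu
  -- `x y = w y x`
  have h1 : x * y = w * (y * x) := by
    rw [hw]; group
  -- `(x y)^2`
  have hyx : y * x = w * (x * y) := by
    rw [h1, ← mul_assoc, ← mul_assoc, hww, one_mul]
  have h2 : (x * y) * (x * y) = w * ((x * x) * (y * y)) := by
    calc (x * y) * (x * y) = x * (y * x) * y := by group
      _ = x * (w * (x * y)) * y := by rw [hyx]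
      _ = (x * w) * (x * y) * y := by group
      _ = (w * x) * (x * y) * y := by rw [hcen x hx]
      _ = w * ((x * x) * (y * y)) := by group
  rw [S.sq _ (S.Q.mul_mem hx hy), S.πmul _ hx _ hy, S.sq _ hx, S.sq _ hy, qV_add, pw_add S.zz, pw_add S.zz] at h2
  -- cancel
  have h3 : ∀ a b c : ZMod 2, pw z a * pw z b * pw z c = pw z c * (pw z a * pw z b) := by
    intro a b c
    simp only [← pw_add S.zz]
    congr 1
    ring
  have h4 : pw z (bV (S.π x) (S.π y)) * (pw z (qV (S.π x)) * pw z (qV (S.π y))) = w * (pw z (qV (S.π x)) * pw z (qV (S.π y))) := by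
    rw [← h3]; exact h2
  exact (mul_right_cancel h4).symm

theorem Q_comm_iff {x y : G} (hx : x ∈ S.Q) (hy : y ∈ S.Q) : x * y = y * x ↔ bV (S.π x) (S.π y) = 0 := by
  have h := comm_Q S hx hy
  constructor
  · intro hc
    have h1 : x * y * x⁻¹ * y⁻¹ = 1 := by rw [hc]; group
    rw [h1] at h
    by_contra h0
    have h2 : bV (S.π x) (S.π y) = 1 := by
      rcases zmod2_cases (bV (S.π x) (S.π y)) with h3 | h3
      · exact (h0 h3).elim
      · exact h3
    rw [h2, pw_one] at h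
    exact S.z1 h.symm
  · intro h0
    rw [h0, pw_zero] at h
    have h1 : x * y * x⁻¹ = y := mul_inv_eq_one.1 h
    exact mul_inv_eq_iff_eq_mul.1 h1

/-- Conjugation in `Q`: `x y x⁻¹ = b y`. -/
theorem conj_Q {x y : G} (hx : x ∈ S.Q) (hy : y ∈ S.Q) : x * y * x⁻¹ = pw z (bV (S.π x) (S.π y)) * y := by
  rw [← comm_Q S hx hy]; group

theorem ψ_of_Q {x : G} (hx : x ∈ S.Q) : S.ψ x = 1 := (S.ψker x (S.Qc x hx)).2 hx

theorem Q_pow4 {x : G} (hx : x ∈ S.Q) : x ^ 4 = 1 := by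
  have h : x ^ 4 = (x * x) * (x * x) := by
    rw [show (4 : ℕ) = 2 + 2 from rfl, pow_add, pow_two]
  rw [h, S.sq x hx, pw_mul_self S.zz]

theorem eq_of_π {x y : G} (hx : x ∈ S.Q) (hy : y ∈ S.Q) (h : S.π x = S.π y) : x = y ∨ x = z * y := by
  have h1 : S.π (x * y⁻¹) = 0 := by
    rw [S.πmul _ hx _ (S.Q.inv_mem hy), π_inv S hy, h, V_add_self]
  rcases (S.πker _ (S.Q.mul_mem hx (S.Q.inv_mem hy))).1 h1 with h2 | h2
  · left; exact mul_inv_eq_one.1 h2
  · right; exact mul_inv_eq_iff_eq_mul.1 h2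

theorem exists_nonperp {x : G} (hx : x ∈ S.Q) (h : S.π x ≠ 0) : ∃ q ∈ S.Q, q * x * q⁻¹ = z * x := by
  have key : ∀ v : V, v ≠ 0 → ∃ u : V, bV u v = 1 := by decide +kernel
  obtain ⟨u, hu⟩ := key _ h
  obtain ⟨q, hq, hqu⟩ := S.πsurj u
  refine ⟨q, hq, ?_⟩
  rw [conj_Q S hq hx, hqu, hu, pw_one]

/-- C is closed under multiplication. -/
theorem comm_mul {c d : G} (hc : c * z = z * c) (hd : d * z = z * d) : (c * d) * z = z * (c * d) := by
  rw [mul_assoc, hd, ← mul_assoc, hc, mul_assoc]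

theorem comm_inv {c : G} (hc : c * z = z * c) : c⁻¹ * z = z * c⁻¹ := by
  rw [eq_mul_inv_iff_mul_eq, mul_assoc, ← hc, inv_mul_cancel_left]

theorem ψ_one : S.ψ 1 = 1 := (S.ψker 1 (by simp)).2 S.Q.one_mem

theorem ψ_inv {c : G} (hc : c * z = z * c) : S.ψ c⁻¹ = (S.ψ c)⁻¹ := by
  have h := S.ψmul c c⁻¹ hc (comm_inv hc)
  rw [mul_inv_cancel, ψ_one] at h
  exact (inv_eq_of_mul_eq_one_right h.symm).symm

theorem ψ_pow {c : G} (hc : c * z = z * c) (n : ℕ) : S.ψ (c ^ n) = (S.ψ c) ^ n ∧ (c ^ n) * z = z * (c ^ n) := by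
  induction n with
  | zero => simp [ψ_one]
  | succ n ih =>
    rw [pow_succ, pow_succ, S.ψmul _ _ ih.2 hc, ih.1]
    exact ⟨rfl, comm_mul ih.2 hc⟩

/-- Every non-trivial element of `Q` with trivial square is conjugate to a given element `t` of `Q` with `π t = τ₀`, or is `z`. -/
theorem conj_of_sing {t : G} (ht : t ∈ S.Q) (hπ : S.π t = τ₀) {x : G} (hx : x ∈ S.Q) (hxx : x * x = 1) (hx1 : x ≠ 1) (hxz : x ≠ z) :
    ∃ c : G, c * x * c⁻¹ = t := by
  have hπx : S.π x ≠ 0 := by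
    intro h
    rcases (S.πker x hx).1 h with h | h
    · exact hx1 h
    · exact hxz h
  have hq : qV (S.π x) = 0 := by
    have h := S.sq x hx
    rw [hxx] at h
    rcases zmod2_cases (qV (S.π x)) with h3 | h3
    · exact h3
    · rw [h3, pw_one] at h
      exact (S.z1 h.symm).elim
  obtain ⟨w, hw, hwa⟩ := trans_sing hq hπx q_τ₀ τ₀_ne
  obtain ⟨c, hc, hcw⟩ := S.ψsurj w hw
  have h1 : S.π (c * x * c⁻¹) = S.π t := by
    rw [S.πψ c hc x hx, hcw, hwa, hπ]
  rcases eq_of_π S (S.Qn c hc x hx) ht h1 with h2 | h2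
  · exact ⟨c, h2⟩
  · -- use `z x`
    obtain ⟨q, hq', hq2⟩ := exists_nonperp S hx hπx
    refine ⟨c * q, ?_⟩
    have hcz := hc
    have e : (c * q) * x * (c * q)⁻¹ = c * (q * x * q⁻¹) * c⁻¹ := by group
    rw [e, hq2]
    have e2 : c * (z * x) * c⁻¹ = (c * z * c⁻¹) * (c * x * c⁻¹) := by group
    have e3 : c * z * c⁻¹ = z := by rw [hc]; group
    rw [e2, e3, h2, ← mul_assoc, S.zz, one_mul]

end Q

end Cfsg.Agent.Lib.SuzInv.Core
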