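import Cfsg.Agent.Lib.SuzInv.Basic

/-!
# Finite facts on `W = τ₀^⊥/τ₀`, elliptic of dimension 4
-/

set_option autoImplicit false
set_option linter.unusedSectionVars false
set_option linter.unusedVariables false
set_option maxRecDepth 100000
set_option synthInstance.maxSize 2000
set_option synthInstance.maxHeartbeats 0

namespace Cfsg.Agent.Lib.SuzInv.WF

open Cfsg.Agent.Lib.SuzInv.Basic

/-- Reflection on `W`. -/
def rW (a v : W) : W := v + bW v a • a
/-- Even product of reflections. -/
def rr (a c v : W) : W := rW a (rW c v)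

/-- Singular vectors. -/
def m₁ : W := (1, 0, 0, 0)
def m₂ : W := (0, 1, 0, 0)
/-- The base pair. -/
def Y0 : W := (0, 0, 1, 0)
def R0 : W := (0, 0, 0, 1)

theorem step : ∀ v w : W, v ≠ 0 → w ≠ 0 → qW v = qW w → ∃ a c : W, qW a = 1 ∧ qW c = 1 ∧ rr a c v = w := by decide +kernel
theorem sum_nons : ∀ w : W, ∃ a b : W, qW a = 1 ∧ qW b = 1 ∧ a + b = w := by decide +kernel
theorem pair1 : ∀ v : W, qW v = 1 → ∃ a c : W, qW a = 1 ∧ qW c = 1 ∧ rr a c v = Y0 := by decide +kernel
theorem pair2 : ∀ x : W, qW x = 1 → bW x Y0 = 1 → ∃ a c : W, qW a = 1 ∧ qW c = 1 ∧ rr a c Y0 = Y0 ∧ rr a c x = R0 := by decide +kernel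
theorem fix0 : ∀ s x : W, (qW s = 0 ∧ s ≠ 0 ∧ (∀ a c : W, qW a = 1 → qW c = 1 → rr a c s = s → rr a c x = x)) → x = 0 ∨ x = s := by decide +kernel
theorem class0 : ∀ y x : W, (y ≠ 0 ∧ qW y = 0 ∧ qW x = 0 ∧ bW x y = 0) → x = 0 ∨ x = y := by decide +kernel
theorem rr_inv : ∀ a c v : W, rr a c (rr c a v) = v := by decide +kernel
theorem rr_b : ∀ a c u v : W, bW (rr a c u) (rr a c v) = bW u v := by decide +kernel
theorem sing4 : ∀ w : W, ∃ a b c d : W, qW a = 0 ∧ qW b = 0 ∧ qW c = 0 ∧ qW d = 0 ∧ a + b + c + d = w := by decide +kernel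
theorem qm₁ : qW m₁ = 0 := by decide +kernel
theorem qm₂ : qW m₂ = 0 := by decide +kernel
theorem bm : bW m₁ m₂ = 1 := by decide +kernel
theorem qY0 : qW Y0 = 1 := by decide +kernel
theorem qR0 : qW R0 = 1 := by decide +kernel
theorem bR : bW R0 Y0 = 1 := by decide +kernel

/-- Every additive functional on `W` is given by the form. -/
theorem functional (f : W → ZMod 2) (hf : ∀ u v, f (u + v) = f u + f v) : ∃ s : W, ∀ v, f v = bW v s := by
  refine ⟨(f (0, 1, 0, 0), f (1, 0, 0, 0), f (0, 0, 0, 1), f (0, 0, 1, 0)), ?_⟩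
  have h0 : f 0 = 0 := by
    have := hf 0 0
    rw [add_zero] at this
    have key : ∀ a : ZMod 2, a = a + a → a = 0 := by decide
    exact key _ this
  rintro ⟨a, b, c, d⟩
  have e : ((a, b, c, d) : W) = (a, 0, 0, 0) + (0, b, 0, 0) + (0, 0, c, 0) + (0, 0, 0, d) := by
    simp
  rw [e, hf, hf, hf]
  have h1 : f (a, 0, 0, 0) = a * f (1, 0, 0, 0) := by
    rcases zmod2_cases a with rfl | rfl
    · rw [zero_mul]; exact h0
    · rw [one_mul]
  have h2 : f (0, b, 0, 0) = b * f (0, 1, 0, 0) := by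
    rcases zmod2_cases b with rfl | rfl
    · rw [zero_mul]; exact h0
    · rw [one_mul]
  have h3 : f (0, 0, c, 0) = c * f (0, 0, 1, 0) := by
    rcases zmod2_cases c with rfl | rfl
    · rw [zero_mul]; exact h0
    · rw [one_mul]
  have h4 : f (0, 0, 0, d) = d * f (0, 0, 0, 1) := by
    rcases zmod2_cases d with rfl | rfl
    · rw [zero_mul]; exact h0
    · rw [one_mul]
  rw [h1, h2, h3, h4]
  simp only [bW, Prod.fst_add, Prod.snd_add, add_zero, zero_add]

theorem nondeg_eq {u v : W} (h : ∀ x, bW x u = bW x v) : u = v := by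
  have h1 : u + v = 0 := by
    apply bW_nondeg
    intro x
    rw [bW_comm, bW_add_right, h x]
    exact zmod2_add_self _
  have h2 := W_add_self v
  calc u = u + v + v := by rw [add_assoc, h2, add_zero]
    _ = v := by rw [h1, zero_add]

/-- A biadditive form invariant under the even products of reflections is `0` or the polar form. -/
theorem invariant_form (F : W → W → ZMod 2) (h1 : ∀ u v w, F (u + v) w = F u w + F v w) (h2 : ∀ u v w, F u (v + w) = F u v + F u w)
    (hinv : ∀ a c, qW a = 1 → qW c = 1 → ∀ u v, F (rr a c u) (rr a c v) = F u v) (hne : ∃ u v, F u v ≠ 0) :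
    ∀ u v, F u v = bW u v := by
  obtain ⟨x, hx⟩ := functional (fun v => F v m₁) (fun u v => h1 u v m₁)
  have hfix : ∀ a c : W, qW a = 1 → qW c = 1 → rr a c m₁ = m₁ → rr a c x = x := by
    intro a c ha hc hm
    apply nondeg_eq
    intro u
    have e1 := hinv a c ha hc (rr c a u) m₁
    rw [rr_inv, hm, hx, hx] at e1
    have e2 := rr_b a c (rr c a u) x
    rw [rr_inv] at e2
    rw [e2, ← e1]
  have hx2 := fix0 m₁ x ⟨qm₁, by decide +kernel, hfix⟩
  have b0 : ∀ y : W, bW y 0 = 0 := by decide +kernel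
  -- all singular vectors
  have hs : ∀ s : W, qW s = 0 → ∀ u, F u s = bW u (if x = 0 then 0 else s) := by
    intro s hs0 u
    by_cases hs1 : s = 0
    · subst hs1
      have h0 : F u 0 = 0 := by
        have := h2 u 0 0
        rw [add_zero] at this
        have key : ∀ a : ZMod 2, a = a + a → a = 0 := by decide
        exact key _ this
      rw [h0, ite_self, b0]
    obtain ⟨a, c, ha, hc, hac⟩ := step m₁ s (by decide +kernel) hs1 (by rw [qm₁, hs0])
    have e1 := hinv a c ha hc (rr c a u) m₁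
    rw [rr_inv, hac, hx] at e1
    rw [e1]
    rcases hx2 with h | h
    · rw [if_pos h, h, b0, b0]
    · have hne0 : x ≠ 0 := by rw [h]; decide +kernel
      rw [if_neg hne0, h]
      have e2 := rr_b a c (rr c a u) m₁
      rw [rr_inv, hac] at e2
      exact e2.symm
  have hall : ∀ u v, F u v = bW u (if x = 0 then 0 else v) := by
    intro u v
    obtain ⟨p, q, r, s, hp, hq, hr, hs', rfl⟩ := sing4 v
    rw [h2, h2, h2, hs p hp, hs q hq, hs r hr, hs s hs']
    by_cases h : x = 0
    · simp only [if_pos h, b0, add_zero]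
    · simp only [if_neg h, bW_add_right]
  obtain ⟨u, v, huv⟩ := hne
  have hx0 : x ≠ 0 := by
    intro h
    apply huv
    rw [hall u v, if_pos h, b0]
  intro u v
  rw [hall u v, if_neg hx0]

/-! ### The five singular vectors, ten non-singular vectors -/

theorem card_sing : (Finset.univ.filter (fun v : W => v ≠ 0 ∧ qW v = 0)).card = 5 := by decide +kernel
theorem card_nons : (Finset.univ.filter (fun v : W => qW v = 1)).card = 10 := by decide +kernel

end Cfsg.Agent.Lib.SuzInv.WF
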