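import Cfsg.Agent.Lib.SuzInv.Core1
import Cfsg.Agent.Lib.SuzInv.WF

/-!
# Suzuki type: the normal form `(g, t)`, the groups `Q₀` and `Y`
-/

set_option autoImplicit false
set_option linter.unusedSectionVars false
set_option linter.unusedVariables false
set_option maxRecDepth 100000

namespace Cfsg.Agent.Lib.SuzInv.Core

open Cfsg Matrix Cfsg.Agent.Lib.SuzInv.Defs Cfsg.Agent.Lib.SuzInv.Basic Cfsg.Agent.Lib.SuzInv.Refl
  Cfsg.Agent.Lib.SuzInv.OmFacts Cfsg.Agent.Lib.SuzInv.WF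

variable {G : Type*} [Group G] {z : G}

/-- The normal form: `g` swaps `z` and `t`, `t ∈ Q` labelled by `τ₀`. -/
structure NF (S : Setup z) (g t : G) : Prop where
  tQ : t ∈ S.Q
  πt : S.π t = τ₀
  gz : g * z * g⁻¹ = t
  gi : g⁻¹ * z * g = t

/-- `x ∈ Q₀`. -/
def InQ0 (S : Setup z) (t x : G) : Prop := x ∈ S.Q ∧ x * t = t * x
/-- `y ∈ Y`. -/
def InY (S : Setup z) (g t y : G) : Prop := InQ0 S t (g⁻¹ * y * g)
/-- `c ∈ N = C(z) ∩ C(t)`. -/
def InN (z t c : G) : Prop := c * z = z * c ∧ c * t = t * c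
/-- The element of `⟨t,z⟩` with given exponents. -/
def dd (t z : G) (α β : ZMod 2) : G := pw t α * pw z β
/-- `x ∈ ⟨t, z⟩`. -/
def InD (t z x : G) : Prop := ∃ α β, x = dd t z α β
/-- The label of an element of `Q₀`. -/
def lb (S : Setup z) (x : G) : W := PP (S.π x)
/-- The label of an element of `Y`. -/
def hat (S : Setup z) (y : G) : W := PP (dl (S.ψ y))

theorem comm_conj {a b : G} (g : G) (h : a * b = b * a) : (g * a * g⁻¹) * (g * b * g⁻¹) = (g * b * g⁻¹) * (g * a * g⁻¹) := by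
  calc (g * a * g⁻¹) * (g * b * g⁻¹) = g * (a * b) * g⁻¹ := by group
    _ = g * (b * a) * g⁻¹ := by rw [h]
    _ = _ := by group

theorem comm_of_conj {a b : G} (g : G) (h : (g⁻¹ * a * g) * (g⁻¹ * b * g) = (g⁻¹ * b * g) * (g⁻¹ * a * g)) : a * b = b * a := by
  have := comm_conj g h
  have e : ∀ x : G, g * (g⁻¹ * x * g) * g⁻¹ = x := by intro x; group
  rwa [e, e] at this

namespace NF

variable {S : Setup z} {g t : G} (h : NF S g t)
include h

theorem tt : t * t = 1 := by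
  rw [S.sq t h.tQ, h.πt, q_τ₀, pw_zero]

theorem t_inv : t⁻¹ = t := inv_eq_of_mul_eq_one_left h.tt

theorem t_ne_one : t ≠ 1 := by
  intro e
  have := h.πt
  rw [e, π_one] at this
  exact τ₀_ne this.symm

theorem t_ne_z : t ≠ z := by
  intro e
  have := h.πt
  rw [e, π_z] at this
  exact τ₀_ne this.symm

theorem tz : t * z = z * t := S.Qc t h.tQ

theorem gt : g * t * g⁻¹ = z := by
  rw [← h.gi]; group

theorem git : g⁻¹ * t * g = z := by
  rw [← h.gz]; group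

theorem gpw (c : ZMod 2) : g * pw z c * g⁻¹ = pw t c := by
  rcases zmod2_cases c with rfl | rfl
  · simp [pw_zero]
  · simp only [pw_one]; exact h.gz

theorem gpwt (c : ZMod 2) : g * pw t c * g⁻¹ = pw z c := by
  rcases zmod2_cases c with rfl | rfl
  · simp [pw_zero]
  · simp only [pw_one]; exact h.gt

/-! ### `N` -/

omit h in
theorem InN.mul {c d : G} (hc : InN z t c) (hd : InN z t d) : InN z t (c * d) :=
  ⟨comm_mul hc.1 hd.1, comm_mul hc.2 hd.2⟩

omit h in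
theorem InN.inv {c : G} (hc : InN z t c) : InN z t c⁻¹ :=
  ⟨comm_inv hc.1, comm_inv hc.2⟩

theorem InN.conj {c : G} (hc : InN z t c) : InN z t (g * c * g⁻¹) := by
  constructor
  · have := comm_conj g hc.2
    rwa [h.gt] at this
  · have := comm_conj g hc.1
    rwa [h.gz] at this

theorem InN.conj' {c : G} (hc : InN z t c) : InN z t (g⁻¹ * c * g) := by
  constructor
  · have := comm_conj g⁻¹ hc.2
    rw [inv_inv, h.git] at this
    exact this
  · have := comm_conj g⁻¹ hc.1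
    rw [inv_inv, h.gi] at this
    exact this

theorem gg : InN z t (g * g) := by
  constructor
  · have e : g * g * z * (g * g)⁻¹ = z := by
      calc g * g * z * (g * g)⁻¹ = g * (g * z * g⁻¹) * g⁻¹ := by group
        _ = z := by rw [h.gz, h.gt]
    exact mul_inv_eq_iff_eq_mul.1 e
  · have e : g * g * t * (g * g)⁻¹ = t := by
      calc g * g * t * (g * g)⁻¹ = g * (g * t * g⁻¹) * g⁻¹ := by group
        _ = t := by rw [h.gt, h.gz]
    exact mul_inv_eq_iff_eq_mul.1 e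

omit h in
theorem InN.cpw {c : G} (hc : InN z t c) (α : ZMod 2) : c * pw t α = pw t α * c := by
  rcases pw_cases t α with e | e <;> rw [e]
  · simp
  · exact hc.2

omit h in
theorem InN.cpwz {c : G} (hc : InN z t c) (α : ZMod 2) : c * pw z α = pw z α * c := by
  rcases pw_cases z α with e | e <;> rw [e]
  · simp
  · exact hc.1

omit h in
theorem InN.cdd {c : G} (hc : InN z t c) (α β : ZMod 2) : c * dd t z α β = dd t z α β * c := by
  show c * (pw t α * pw z β) = pw t α * pw z β * c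
  rw [← mul_assoc, InN.cpw hc, mul_assoc, InN.cpwz hc, mul_assoc]

/-! ### `⟨t,z⟩` -/

theorem dd_mul (α β α' β' : ZMod 2) : dd t z α β * dd t z α' β' = dd t z (α + α') (β + β') := by
  show pw t α * pw z β * (pw t α' * pw z β') = pw t (α + α') * pw z (β + β')
  rw [pw_add h.tt, pw_add S.zz]
  have e := pw_comm h.tz.symm β α'
  calc pw t α * pw z β * (pw t α' * pw z β') = pw t α * (pw z β * pw t α') * pw z β' := by group
    _ = pw t α * (pw t α' * pw z β) * pw z β' := by rw [e]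
    _ = _ := by group

theorem dd_self (α β : ZMod 2) : dd t z α β * dd t z α β = 1 := by
  rw [h.dd_mul, zmod2_add_self, zmod2_add_self]
  show pw t 0 * pw z 0 = 1
  rw [pw_zero, pw_zero, one_mul]

theorem dd_eq_one {α β : ZMod 2} (e : dd t z α β = 1) : α = 0 ∧ β = 0 := by
  rcases zmod2_cases α with rfl | rfl <;> rcases zmod2_cases β with rfl | rfl
  · exact ⟨rfl, rfl⟩
  · exfalso
    have : dd t z 0 1 = z := by simp [dd, pw_zero, pw_one]
    rw [this] at e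
    exact S.z1 e
  · exfalso
    have : dd t z 1 0 = t := by simp [dd, pw_zero, pw_one]
    rw [this] at e
    exact h.t_ne_one e
  · exfalso
    have : dd t z 1 1 = t * z := by simp [dd, pw_one]
    rw [this] at e
    apply h.t_ne_z
    have h2 : t = z⁻¹ := eq_inv_of_mul_eq_one_left e
    rw [h2, z_inv S]

theorem dd_inj {α β α' β' : ZMod 2} (e : dd t z α β = dd t z α' β') : α = α' ∧ β = β' := by
  have h1 : dd t z (α + α') (β + β') = 1 := by
    rw [← h.dd_mul, e, h.dd_self]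
  obtain ⟨h2, h3⟩ := h.dd_eq_one h1
  have key : ∀ a b : ZMod 2, a + b = 0 → a = b := by decide
  exact ⟨key _ _ h2, key _ _ h3⟩

theorem dd_mem (α β : ZMod 2) : dd t z α β ∈ S.Q :=
  S.Q.mul_mem (by rcases pw_cases t α with e | e <;> rw [e]; exacts [S.Q.one_mem, h.tQ]) (pw_z_mem S β)

theorem π_dd (α β : ZMod 2) : S.π (dd t z α β) = α • τ₀ := by
  have h1 : pw t α ∈ S.Q := by rcases pw_cases t α with e | e <;> rw [e]; exacts [S.Q.one_mem, h.tQ]
  show S.π (pw t α * pw z β) = _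
  rw [S.πmul _ h1 _ (pw_z_mem S β)]
  have h2 : S.π (pw z β) = 0 := by
    rcases pw_cases z β with e | e <;> rw [e]
    · exact π_one S
    · exact π_z S
  rw [h2, add_zero]
  rcases zmod2_cases α with rfl | rfl
  · rw [pw_zero, π_one, zero_smul]
  · rw [pw_one, one_smul, h.πt]

theorem InQ0_iff {x : G} (hx : x ∈ S.Q) : InQ0 S t x ↔ S.π x y0 = 0 := by
  have h1 := Q_comm_iff S hx h.tQ
  rw [h.πt, b_τ₀] at h1
  exact ⟨fun h2 => h1.1 h2.2, fun h2 => ⟨hx, h1.2 h2⟩⟩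

theorem InQ0.inN {x : G} (hx : InQ0 S t x) : InN z t x := ⟨S.Qc x hx.1, hx.2⟩

omit h in
theorem InQ0.mul {x x' : G} (hx : InQ0 S t x) (hx' : InQ0 S t x') : InQ0 S t (x * x') :=
  ⟨S.Q.mul_mem hx.1 hx'.1, comm_mul hx.2 hx'.2⟩

omit h in
theorem InQ0.inv {x : G} (hx : InQ0 S t x) : InQ0 S t x⁻¹ :=
  ⟨S.Q.inv_mem hx.1, comm_inv hx.2⟩

theorem InQ0.conj {c x : G} (hc : InN z t c) (hx : InQ0 S t x) : InQ0 S t (c * x * c⁻¹) := by
  refine ⟨S.Qn c hc.1 x hx.1, ?_⟩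
  have e : c * t * c⁻¹ = t := mul_inv_eq_iff_eq_mul.2 hc.2
  have := comm_conj c hx.2
  rwa [e] at this

theorem dd_InQ0 (α β : ZMod 2) : InQ0 S t (dd t z α β) := by
  refine ⟨h.dd_mem α β, ?_⟩
  show pw t α * pw z β * t = t * (pw t α * pw z β)
  have e1 : pw t α * t = t * pw t α := by
    rcases pw_cases t α with e | e <;> rw [e]
    simp
  have e2 := InN.cpwz (z := z) (t := t) (c := t) ⟨h.tz, rfl⟩ β
  rw [mul_assoc, ← e2, ← mul_assoc, e1, mul_assoc]

theorem lb_dd (α β : ZMod 2) : lb S (dd t z α β) = 0 := by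
  show PP (S.π _) = 0
  rw [h.π_dd]
  rcases zmod2_cases α with rfl | rfl
  · rw [zero_smul]; rfl
  · rw [one_smul, PP_τ₀]

theorem InQ0.lb_mul {x x' : G} (hx : InQ0 S t x) (hx' : InQ0 S t x') : lb S (x * x') = lb S x + lb S x' := by
  show PP (S.π (x * x')) = PP _ + PP _
  rw [S.πmul _ hx.1 _ hx'.1, PP_add]

theorem InQ0.lb_inv {x : G} (hx : InQ0 S t x) : lb S x⁻¹ = lb S x := by
  show PP (S.π x⁻¹) = PP _
  rw [π_inv S hx.1]

theorem InQ0.y0 {x : G} (hx : InQ0 S t x) : S.π x y0 = 0 := (h.InQ0_iff hx.1).1 hx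

theorem of_lb {x : G} (hx : InQ0 S t x) (h0 : lb S x = 0) : ∃ α β, x = dd t z α β := by
  rcases per_ker _ (InQ0.y0 h hx) h0 with h1 | h1
  · rcases (S.πker x hx.1).1 h1 with e | e
    · exact ⟨0, 0, by simp [e, dd, pw_zero]⟩
    · exact ⟨0, 1, by simp [e, dd, pw_zero, pw_one]⟩
  · rcases eq_of_π S hx.1 h.tQ (h1.trans h.πt.symm) with e | e
    · exact ⟨1, 0, by simp [e, dd, pw_zero, pw_one]⟩
    · exact ⟨1, 1, by simp [e, dd, pw_one, h.tz]⟩

theorem exists_lb (v : W) : ∃ x, InQ0 S t x ∧ lb S x = v := by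
  obtain ⟨x, hx, hxv⟩ := S.πsurj (inj v)
  refine ⟨x, (h.InQ0_iff hx).2 (by rw [hxv]; exact inj_y0 v), ?_⟩
  show PP (S.π x) = v
  rw [hxv, PP_inj]

theorem InQ0.sq {x : G} (hx : InQ0 S t x) : x * x = pw z (qW (lb S x)) := by
  rw [S.sq x hx.1, per_q _ (InQ0.y0 h hx)]
  rfl

theorem InQ0.comm {x x' : G} (hx : InQ0 S t x) (hx' : InQ0 S t x') :
    x * x' * x⁻¹ * x'⁻¹ = pw z (bW (lb S x) (lb S x')) := by
  rw [comm_Q S hx.1 hx'.1, per_b _ _ (InQ0.y0 h hx) (InQ0.y0 h hx')]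
  rfl

theorem InQ0.conj_lb {c x : G} (hc : InN z t c) (hx : InQ0 S t x) :
    lb S (c * x * c⁻¹) = Ac (S.ψ c) (lb S x) := by
  show PP (S.π _) = _
  rw [S.πψ c hc.1 x hx.1]
  apply Ac_PP _ (InQ0.y0 h hx)
  have e : c * t * c⁻¹ = t := mul_inv_eq_iff_eq_mul.2 hc.2
  have := S.πψ c hc.1 t h.tQ
  rw [e, h.πt] at this
  exact this.symm

theorem InN.fix {c : G} (hc : InN z t c) : act (S.ψ c) τ₀ = τ₀ := by
  have e : c * t * c⁻¹ = t := mul_inv_eq_iff_eq_mul.2 hc.2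
  have := S.πψ c hc.1 t h.tQ
  rw [e, h.πt] at this
  exact this.symm

/-! ### `Y` -/

theorem InY.eq {y : G} : y = g * (g⁻¹ * y * g) * g⁻¹ := by group

theorem InY.inN {y : G} (hy : InY S g t y) : InN z t y := by
  have h1 : InN z t (g⁻¹ * y * g) := InQ0.inN h hy
  have h2 := InN.conj h h1
  rwa [← InY.eq h] at h2

omit h in
theorem InY.mul {y y' : G} (hy : InY S g t y) (hy' : InY S g t y') : InY S g t (y * y') := by
  have e : g⁻¹ * (y * y') * g = (g⁻¹ * y * g) * (g⁻¹ * y' * g) := by group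
  show InQ0 S t _
  rw [e]
  exact InQ0.mul hy hy'

omit h in
theorem InY.inv {y : G} (hy : InY S g t y) : InY S g t y⁻¹ := by
  have e : g⁻¹ * y⁻¹ * g = (g⁻¹ * y * g)⁻¹ := by group
  show InQ0 S t _
  rw [e]
  exact InQ0.inv hy

theorem InY.conj {c y : G} (hc : InN z t c) (hy : InY S g t y) : InY S g t (c * y * c⁻¹) := by
  have e : g⁻¹ * (c * y * c⁻¹) * g = (g⁻¹ * c * g) * (g⁻¹ * y * g) * (g⁻¹ * c * g)⁻¹ := by group
  show InQ0 S t _
  rw [e]
  exact InQ0.conj h (InN.conj' h hc) hy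

omit h in
theorem InY.of_Q0 {r : G} (hr : InQ0 S t r) : InY S g t (g * r * g⁻¹) := by
  have e : g⁻¹ * (g * r * g⁻¹) * g = r := by group
  show InQ0 S t _
  rw [e]
  exact hr

theorem InY.of_Q0' {r : G} (hr : InQ0 S t r) : InY S g t (g⁻¹ * r * g) := by
  have e : g⁻¹ * (g⁻¹ * r * g) * g = (g * g)⁻¹ * r * ((g * g)⁻¹)⁻¹ := by simp only [_root_.mul_inv_rev, inv_inv, mul_assoc]
  show InQ0 S t _
  rw [e]
  exact InQ0.conj h (InN.inv h.gg) hr

theorem InQ0.of_Y {y : G} (hy : InY S g t y) : InQ0 S t (g * y * g⁻¹) := by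
  have e : g * y * g⁻¹ = (g * g) * (g⁻¹ * y * g) * (g * g)⁻¹ := by group
  rw [e]
  exact InQ0.conj h h.gg hy

theorem InY.sq {y : G} (hy : InY S g t y) : y * y = pw t (qW (lb S (g⁻¹ * y * g))) := by
  have h1 := InQ0.sq h hy
  have e : y * y = g * ((g⁻¹ * y * g) * (g⁻¹ * y * g)) * g⁻¹ := by group
  rw [e, h1, h.gpw]

theorem InY.comm {y y' : G} (hy : InY S g t y) (hy' : InY S g t y') :
    y * y' * y⁻¹ * y'⁻¹ = pw t (bW (lb S (g⁻¹ * y * g)) (lb S (g⁻¹ * y' * g))) := by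
  have h1 := InQ0.comm h hy hy'
  rw [← h.gpw, ← h1]
  group

theorem dd_conj (α β : ZMod 2) : g * dd t z α β * g⁻¹ = dd t z β α := by
  have e : g * dd t z α β * g⁻¹ = (g * pw t α * g⁻¹) * (g * pw z β * g⁻¹) := by
    show g * (pw t α * pw z β) * g⁻¹ = _
    group
  rw [e, h.gpw, h.gpwt]
  show pw z α * pw t β = pw t β * pw z α
  exact pw_comm h.tz.symm α β

theorem dd_conj' (α β : ZMod 2) : g⁻¹ * dd t z α β * g = dd t z β α := by
  rw [← h.dd_conj β α]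
  group

theorem dd_InY (α β : ZMod 2) : InY S g t (dd t z α β) := by
  show InQ0 S t _
  rw [h.dd_conj']
  exact h.dd_InQ0 β α

/-! ### Elements of `N` realising isometries -/

theorem exists_N {w : OO} (hw : w ∈ commutator OO) (hf : act w τ₀ = τ₀) : ∃ c, InN z t c ∧ S.ψ c = w := by
  obtain ⟨c₀, hc₀, hcw⟩ := S.ψsurj w hw
  have h1 : S.π (c₀ * t * c₀⁻¹) = S.π t := by
    rw [S.πψ c₀ hc₀ t h.tQ, hcw, h.πt, hf]
  rcases eq_of_π S (S.Qn c₀ hc₀ t h.tQ) h.tQ h1 with h2 | h2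
  · exact ⟨c₀, ⟨hc₀, mul_inv_eq_iff_eq_mul.1 h2⟩, hcw⟩
  · obtain ⟨x, hx, hxv⟩ := S.πsurj v₁
    have h3 : x * t * x⁻¹ = z * t := by
      rw [conj_Q S hx h.tQ, hxv, h.πt, bV_comm, b_τ₀_v₁, pw_one]
    refine ⟨c₀ * x, ⟨comm_mul hc₀ (S.Qc x hx), ?_⟩, ?_⟩
    · have e : (c₀ * x) * t * (c₀ * x)⁻¹ = c₀ * (x * t * x⁻¹) * c₀⁻¹ := by group
      have e2 : c₀ * (z * t) * c₀⁻¹ = (c₀ * z * c₀⁻¹) * (c₀ * t * c₀⁻¹) := by group
      have e3 : c₀ * z * c₀⁻¹ = z := mul_inv_eq_iff_eq_mul.2 hc₀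
      have e4 : (c₀ * x) * t * (c₀ * x)⁻¹ = t := by
        rw [e, h3, e2, e3, h2, ← mul_assoc, S.zz, one_mul]
      exact mul_inv_eq_iff_eq_mul.1 e4
    · rw [S.ψmul _ _ hc₀ (S.Qc x hx), ψ_of_Q S hx, mul_one, hcw]

end NF

/-! ### The reflections on `W` lifted to `V` -/

theorem rf_fix {a : W} (ha : qW a = 1) : act (rf (inj a)) τ₀ = τ₀ := by
  have h1 : qV (inj a) = 1 := by rw [q_inj, ha]
  rw [act_rf h1, bV_comm, b_τ₀, inj_y0, zero_smul, add_zero]

theorem Ac_rf {a : W} (ha : qW a = 1) (v : W) : Ac (rf (inj a)) v = rW a v := by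
  have h1 : qV (inj a) = 1 := by rw [q_inj, ha]
  show PP (act (rf (inj a)) (inj v)) = v + bW v a • a
  rw [act_rf h1, PP_add, PP_inj, b_inj _ _ (inj_y0 v), PP_inj]
  rcases zmod2_cases (bW v a) with e | e <;> rw [e]
  · rw [zero_smul, zero_smul]
    rfl
  · rw [one_smul, one_smul, PP_inj]

namespace NF

variable {S : Setup z} {g t : G} (h : NF S g t)
include h

/-- Even products of reflections are realised in `N`. -/
theorem exists_rr {a c : W} (ha : qW a = 1) (hc : qW c = 1) : ∃ n, InN z t n ∧ ∀ v, Ac (S.ψ n) v = rr a c v := by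
  have h1 : qV (inj a) = 1 := by rw [q_inj, ha]
  have h2 : qV (inj c) = 1 := by rw [q_inj, hc]
  have hf : act (rf (inj a) * rf (inj c)) τ₀ = τ₀ := by
    rw [act_mul, rf_fix hc, rf_fix ha]
  obtain ⟨n, hn, hnw⟩ := h.exists_N (rf_mul_rf_mem h1 h2) hf
  refine ⟨n, hn, fun v => ?_⟩
  rw [hnw, Ac_mul (rf_fix ha) (rf_fix hc), Ac_rf hc, Ac_rf ha]
  rfl

/-- A subset of `W` stable under `N` contains a non-zero vector only with all vectors of the same type. -/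
theorem orbit {T : W → Prop} (hT : ∀ c, InN z t c → ∀ v, T v → T (Ac (S.ψ c) v)) {v w : W} (hv : T v) (hv0 : v ≠ 0) (hw0 : w ≠ 0)
    (hq : qW v = qW w) : T w := by
  obtain ⟨a, c, ha, hc, e⟩ := step v w hv0 hw0 hq
  obtain ⟨n, hn, hnv⟩ := h.exists_rr ha hc
  have := hT n hn v hv
  rwa [hnv, e] at this

/-- Irreducibility. -/
theorem irred {T : W → Prop} (hT : ∀ c, InN z t c → ∀ v, T v → T (Ac (S.ψ c) v)) (hadd : ∀ u v, T u → T v → T (u + v))
    {v : W} (hv : T v) (hv0 : v ≠ 0) (w : W) : T w := by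
  have hnons : ∃ n, T n ∧ qW n = 1 := by
    rcases zmod2_cases (qW v) with h0 | h1
    · have h1 : T m₁ := h.orbit hT hv hv0 (by decide +kernel) (by rw [h0, qm₁])
      have h2 : T m₂ := h.orbit hT hv hv0 (by decide +kernel) (by rw [h0, qm₂])
      exact ⟨_, hadd _ _ h1 h2, by decide +kernel⟩
    · exact ⟨v, hv, h1⟩
  obtain ⟨n, hn, hn1⟩ := hnons
  have hn0 : n ≠ 0 := by
    rintro rfl
    revert hn1
    decide +kernel
  obtain ⟨a, b, ha, hb, rfl⟩ := sum_nons w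
  have ne0 : ∀ x : W, qW x = 1 → x ≠ 0 := by decide +kernel
  exact hadd _ _ (h.orbit hT hn hn0 (ne0 _ ha) (by rw [hn1, ha])) (h.orbit hT hn hn0 (ne0 _ hb) (by rw [hn1, hb]))

/-- `Q₀ ∩ Y = ⟨t, z⟩`. -/
theorem inter {x : G} (hx : InQ0 S t x) (hy : InY S g t x) : ∃ α β, x = dd t z α β := by
  apply h.of_lb hx
  by_contra h0
  let T : W → Prop := fun v => ∃ w, InQ0 S t w ∧ InY S g t w ∧ lb S w = v
  have hT : ∀ c, InN z t c → ∀ v, T v → T (Ac (S.ψ c) v) := by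
    rintro c hc v ⟨w, hw, hwy, rfl⟩
    exact ⟨c * w * c⁻¹, InQ0.conj h hc hw, InY.conj h hc hwy, InQ0.conj_lb h hc hw⟩
  have hadd : ∀ u v, T u → T v → T (u + v) := by
    rintro u v ⟨w, hw, hwy, rfl⟩ ⟨w', hw', hwy', rfl⟩
    exact ⟨w * w', InQ0.mul hw hw', InY.mul hwy hwy', InQ0.lb_mul h hw hw'⟩
  have hTx : T (lb S x) := ⟨x, hx, hy, rfl⟩
  obtain ⟨w₁, h1, h1y, h1l⟩ := h.irred hT hadd hTx h0 m₁
  obtain ⟨w₂, h2, h2y, h2l⟩ := h.irred hT hadd hTx h0 m₂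
  have e1 := InQ0.comm h h1 h2
  have e2 := InY.comm h h1y h2y
  rw [h1l, h2l, bm, pw_one] at e1
  rw [e1] at e2
  rcases pw_cases t (bW (lb S (g⁻¹ * w₁ * g)) (lb S (g⁻¹ * w₂ * g))) with e | e <;> rw [e] at e2
  · exact S.z1 e2
  · exact h.t_ne_z e2.symm

end NF

end Cfsg.Agent.Lib.SuzInv.Core
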