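import Cfsg.Agent.Lib.SuzInv.Core2

/-!
# Suzuki type: labels of `Y`, the square and commutator formulas
-/

set_option autoImplicit false
set_option linter.unusedSectionVars false
set_option linter.unusedVariables false
set_option maxRecDepth 100000
set_option synthInstance.maxSize 2000
set_option synthInstance.maxHeartbeats 0

namespace Cfsg.Agent.Lib.SuzInv.Core

open Cfsg Matrix Cfsg.Agent.Lib.SuzInv.Defs Cfsg.Agent.Lib.SuzInv.Basic Cfsg.Agent.Lib.SuzInv.Refl
  Cfsg.Agent.Lib.SuzInv.OmFacts Cfsg.Agent.Lib.SuzInv.WF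

variable {G : Type*} [Group G] {z : G}

namespace NF

variable {S : Setup z} {g t : G} (h : NF S g t)
include h

/-- The commutator `[y,x]` lies in `⟨t,z⟩`. -/
theorem comm_inter {x y : G} (hx : InQ0 S t x) (hy : InY S g t y) : ∃ α β, y * x * y⁻¹ * x⁻¹ = dd t z α β := by
  have hN := InY.inN h hy
  apply h.inter
  · exact InQ0.mul (InQ0.conj h hN hx) (InQ0.inv hx)
  · have e : y * x * y⁻¹ * x⁻¹ = y * (x * y⁻¹ * x⁻¹) := by group
    rw [e]
    exact InY.mul hy (InY.conj h (InQ0.inN h hx) (InY.inv hy))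

theorem InY.isA {y : G} (hy : InY S g t y) : IsA (S.ψ y) := by
  have hN := InY.inN h hy
  refine ⟨InN.fix h hN, fun u hu => ?_⟩
  obtain ⟨x, hx, hxu⟩ := S.πsurj u
  have hx0 : InQ0 S t x := (h.InQ0_iff hx).2 (by rw [hxu]; exact hu)
  obtain ⟨α, β, e⟩ := h.comm_inter hx0 hy
  have e1 : y * x * y⁻¹ = dd t z α β * x := by rw [← e]; group
  have e2 := S.πψ y hN.1 x hx
  rw [e1, S.πmul _ (h.dd_mem α β) _ hx, h.π_dd, hxu] at e2
  rw [← e2]
  rcases zmod2_cases α with rfl | rfl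
  · left
    rw [zero_smul, zero_add, V_add_self]
  · right
    rw [one_smul, add_assoc, V_add_self, add_zero]

/-- The `t`-exponent of the commutator. -/
theorem kappa {x y : G} (hx : InQ0 S t x) (hy : InY S g t y) : ∃ β, y * x * y⁻¹ * x⁻¹ = dd t z (bW (lb S x) (hat S y)) β := by
  have hN := InY.inN h hy
  obtain ⟨α, β, e⟩ := h.comm_inter hx hy
  refine ⟨β, ?_⟩
  rw [e]
  have e1 : y * x * y⁻¹ = dd t z α β * x := by rw [← e]; group
  have e2 := S.πψ y hN.1 x hx.1
  rw [e1, S.πmul _ (h.dd_mem α β) _ hx.1, h.π_dd, (InY.isA h hy).act_eq (InQ0.y0 h hx),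
    per_b _ _ (InQ0.y0 h hx) (dl_y0 (InY.isA h hy).1)] at e2
  have e3 : α = bW (lb S x) (hat S y) := by
    have e4 : α • τ₀ + S.π x = S.π x + bW (lb S x) (hat S y) • τ₀ := e2
    rw [add_comm] at e4
    have e5 := add_left_cancel e4
    rcases zmod2_cases α with h1 | h1 <;> rcases zmod2_cases (bW (lb S x) (hat S y)) with h2 | h2 <;> rw [h1, h2] at e5 ⊢
    · simp only [one_smul, zero_smul] at e5
      exact (τ₀_ne e5.symm).elim
    · simp only [one_smul, zero_smul] at e5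
      exact (τ₀_ne e5).elim
  rw [e3]

theorem hat_mul {y y' : G} (hy : InY S g t y) (hy' : InY S g t y') : hat S (y * y') = hat S y + hat S y' := by
  show PP (dl (S.ψ (y * y'))) = _
  rw [S.ψmul _ _ (InY.inN h hy).1 (InY.inN h hy').1]
  exact (InY.isA h hy).dl_mul (InY.isA h hy')

theorem hat_one : hat S (1 : G) = 0 := by
  show PP (dl (S.ψ 1)) = 0
  rw [ψ_one]
  show PP (act 1 v₁ + v₁) = 0
  rw [act_one, V_add_self]
  rfl

theorem hat_dd (α β : ZMod 2) : hat S (dd t z α β) = 0 := by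
  show PP (dl (S.ψ _)) = 0
  rw [ψ_of_Q S (h.dd_mem α β)]
  show PP (act 1 v₁ + v₁) = 0
  rw [act_one, V_add_self]
  rfl

theorem of_hat {y : G} (hy : InY S g t y) (h0 : hat S y = 0) : ∃ α β, y = dd t z α β := by
  have h1 : S.ψ y = 1 := (InY.isA h hy).eq_one h0
  have hN := InY.inN h hy
  have h2 : y ∈ S.Q := (S.ψker y hN.1).1 h1
  exact h.inter ⟨h2, hN.2⟩ hy

theorem hat_conj {c y : G} (hc : InN z t c) (hy : InY S g t y) : hat S (c * y * c⁻¹) = Ac (S.ψ c) (hat S y) := by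
  apply nondeg_eq
  intro v
  obtain ⟨x', hx', hx'v⟩ := h.exists_lb (S := S) (g := g) v
  set x := c⁻¹ * x' * c with hxdef
  have hx : InQ0 S t x := by
    have := InQ0.conj h (InN.inv hc) hx'
    rwa [inv_inv] at this
  have e : c * x * c⁻¹ = x' := by rw [hxdef]; group
  obtain ⟨β, hβ⟩ := h.kappa hx hy
  obtain ⟨β', hβ'⟩ := h.kappa hx' (InY.conj h hc hy)
  have e2 : (c * y * c⁻¹) * x' * (c * y * c⁻¹)⁻¹ * x'⁻¹ = c * (y * x * y⁻¹ * x⁻¹) * c⁻¹ := by
    rw [← e]; group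
  rw [hβ', hβ] at e2
  have e3 : c * dd t z (bW (lb S x) (hat S y)) β * c⁻¹ = dd t z (bW (lb S x) (hat S y)) β := by
    rw [InN.cdd hc]; group
  rw [e3] at e2
  have e4 := (h.dd_inj e2).1
  rw [hx'v] at e4
  rw [e4]
  have e5 : lb S x' = Ac (S.ψ c) (lb S x) := by rw [← e]; exact InQ0.conj_lb h hc hx
  rw [hx'v] at e5
  rw [e5, Ac_b (InN.fix h hc)]

theorem hat_surj (w : W) : ∃ y, InY S g t y ∧ hat S y = w := by
  let T : W → Prop := fun v => ∃ y, InY S g t y ∧ hat S y = v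
  have hT : ∀ c, InN z t c → ∀ v, T v → T (Ac (S.ψ c) v) := by
    rintro c hc v ⟨y, hy, rfl⟩
    exact ⟨c * y * c⁻¹, InY.conj h hc hy, h.hat_conj hc hy⟩
  have hadd : ∀ u v, T u → T v → T (u + v) := by
    rintro u v ⟨y, hy, rfl⟩ ⟨y', hy', rfl⟩
    exact ⟨y * y', InY.mul hy hy', h.hat_mul hy hy'⟩
  obtain ⟨x, hx, hxl⟩ := h.exists_lb (S := S) (g := g) m₁
  have hy := InY.of_Q0 (g := g) hx
  have hne : hat S (g * x * g⁻¹) ≠ 0 := by
    intro h0
    obtain ⟨α, β, e⟩ := h.of_hat hy h0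
    have e2 : x = dd t z β α := by
      rw [← h.dd_conj' α β, ← e]; group
    have := h.lb_dd β α
    rw [← e2, hxl] at this
    revert this
    decide +kernel
  exact h.irred hT hadd ⟨_, hy, rfl⟩ hne w

/-! ### The form on `Y` -/

/-- A lift of a vector to `Q₀`. -/
noncomputable def lift (h : NF S g t) (v : W) : G := Classical.choose (h.exists_lb v)

theorem lift_spec (v : W) : InQ0 S t (lift h v) ∧ lb S (lift h v) = v := Classical.choose_spec (h.exists_lb v)

/-- `Φ`: the label in `Y` of the `g`-conjugate of an element of `Q₀`. -/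
noncomputable def Phi (h : NF S g t) (v : W) : W := hat S (g * lift h v * g⁻¹)

theorem Phi_spec {r : G} (hr : InQ0 S t r) : hat S (g * r * g⁻¹) = Phi h (lb S r) := by
  set l := lift h (lb S r) with hl
  obtain ⟨h1, h2⟩ := lift_spec h (lb S r)
  have h3 : lb S (l⁻¹ * r) = 0 := by
    rw [InQ0.lb_mul h (InQ0.inv h1) hr, InQ0.lb_inv h h1, h2, W_add_self]
  obtain ⟨α, β, e⟩ := h.of_lb (InQ0.mul (InQ0.inv h1) hr) h3
  have e2 : r = l * dd t z α β := by rw [← e, hl]; group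
  have e3 : g * r * g⁻¹ = (g * l * g⁻¹) * dd t z β α := by
    rw [e2, ← h.dd_conj α β]; group
  rw [e3, h.hat_mul (InY.of_Q0 h1) (h.dd_InY β α), h.hat_dd, add_zero]
  rfl

theorem Phi_add (u v : W) : Phi h (u + v) = Phi h u + Phi h v := by
  obtain ⟨h1, h2⟩ := lift_spec h u
  obtain ⟨h3, h4⟩ := lift_spec h v
  have e := Phi_spec h (InQ0.mul h1 h3)
  rw [InQ0.lb_mul h h1 h3, h2, h4] at e
  rw [← e]
  have e2 : g * (lift h u * lift h v) * g⁻¹ = (g * lift h u * g⁻¹) * (g * lift h v * g⁻¹) := by group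
  rw [e2, h.hat_mul (InY.of_Q0 h1) (InY.of_Q0 h3)]
  rfl

theorem Phi_zero_iff {v : W} (h0 : Phi h v = 0) : v = 0 := by
  obtain ⟨h1, h2⟩ := lift_spec h v
  obtain ⟨α, β, e⟩ := h.of_hat (InY.of_Q0 h1) h0
  have e2 : lift h v = dd t z β α := by
    rw [← h.dd_conj' α β, ← e]; group
  rw [← h2, e2, h.lb_dd]

theorem Phi_zero : Phi h 0 = 0 := by
  have := Phi_add h 0 0
  rw [add_zero] at this
  have key : ∀ a : W, a = a + a → a = 0 := by decide +kernel
  exact key _ this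

theorem Phi_inj : Function.Injective (Phi h) := by
  intro u v e
  have h1 : Phi h (u + v) = 0 := by
    rw [Phi_add, e, W_add_self]
  have h2 := Phi_zero_iff h h1
  calc u = u + v + v := by rw [add_assoc, W_add_self, add_zero]
    _ = v := by rw [h2, zero_add]

theorem qW_Phi_sing {v : W} (hv0 : v ≠ 0) (hv : qW v = 0) : qW (Phi h v) = 0 := by
  classical
  by_contra hne
  have h1 : qW (Phi h v) = 1 := by
    rcases zmod2_cases (qW (Phi h v)) with e | e
    · exact (hne e).elim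
    · exact e
  let T : W → Prop := fun w => ∃ y, InY S g t y ∧ y * y = 1 ∧ hat S y = w
  have hT : ∀ c, InN z t c → ∀ w, T w → T (Ac (S.ψ c) w) := by
    rintro c hc w ⟨y, hy, hyy, rfl⟩
    refine ⟨c * y * c⁻¹, InY.conj h hc hy, ?_, h.hat_conj hc hy⟩
    have e : (c * y * c⁻¹) * (c * y * c⁻¹) = c * (y * y) * c⁻¹ := by group
    rw [e, hyy]; group
  have hv1 : T (Phi h v) := by
    obtain ⟨h2, h3⟩ := lift_spec h v
    refine ⟨_, InY.of_Q0 h2, ?_, rfl⟩
    have e : (g * lift h v * g⁻¹) * (g * lift h v * g⁻¹) = g * (lift h v * lift h v) * g⁻¹ := by group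
    rw [e, InQ0.sq h h2, h3, hv, pw_zero]
    group
  have hne0 : Phi h v ≠ 0 := fun e => hv0 (Phi_zero_iff h e)
  have hall : ∀ w, qW w = 1 → ∃ s, s ≠ 0 ∧ qW s = 0 ∧ Phi h s = w := by
    intro w hw
    have hw0 : w ≠ 0 := by
      rintro rfl
      revert hw
      decide +kernel
    obtain ⟨y, hy, hyy, hyw⟩ := h.orbit hT hv1 hne0 hw0 (by rw [h1, hw])
    have hs := Phi_spec h (r := g⁻¹ * y * g) hy
    have e : g * (g⁻¹ * y * g) * g⁻¹ = y := by group
    rw [e, hyw] at hs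
    refine ⟨lb S (g⁻¹ * y * g), ?_, ?_, hs.symm⟩
    · intro h0
      rw [h0, Phi_zero] at hs
      exact hw0 hs
    · have h3 := InY.sq h hy
      rw [hyy] at h3
      rcases zmod2_cases (qW (lb S (g⁻¹ * y * g))) with e | e
      · exact e
      · rw [e, pw_one] at h3
        exact (h.t_ne_one h3.symm).elim
  have hsub : (Finset.univ.filter (fun v : W => qW v = 1)) ⊆ (Finset.univ.filter (fun v : W => v ≠ 0 ∧ qW v = 0)).image (Phi h) := by
    intro w hw
    rw [Finset.mem_filter] at hw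
    obtain ⟨s, h0, h2, h3⟩ := hall w hw.2
    rw [Finset.mem_image]
    exact ⟨s, by rw [Finset.mem_filter]; exact ⟨Finset.mem_univ _, h0, h2⟩, h3⟩
  have hc := Finset.card_le_card hsub
  have hc2 := Finset.card_image_le (s := Finset.univ.filter (fun v : W => v ≠ 0 ∧ qW v = 0)) (f := Phi h)
  rw [card_nons] at hc
  rw [card_sing] at hc2
  omega

theorem qW_Phi (v : W) : qW (Phi h v) = qW v := by
  classical
  by_cases hv0 : v = 0
  · rw [hv0, Phi_zero]
  rcases zmod2_cases (qW v) with h0 | h1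
  · rw [h0, qW_Phi_sing h hv0 h0]
  · rw [h1]
    by_contra hne
    have h2 : qW (Phi h v) = 0 := by
      rcases zmod2_cases (qW (Phi h v)) with e | e
      · exact e
      · exact (hne e).elim
    have hsub : (Finset.univ.filter (fun v : W => v ≠ 0 ∧ qW v = 0)).image (Phi h) ⊆ (Finset.univ.filter (fun v : W => v ≠ 0 ∧ qW v = 0)) := by
      intro w hw
      rw [Finset.mem_image] at hw
      obtain ⟨s, hs, rfl⟩ := hw
      rw [Finset.mem_filter] at hs ⊢
      exact ⟨Finset.mem_univ _, fun e => hs.2.1 (Phi_zero_iff h e), qW_Phi_sing h hs.2.1 hs.2.2⟩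
    have heq := Finset.eq_of_subset_of_card_le hsub (by
      rw [Finset.card_image_of_injective _ (Phi_inj h)])
    have hmem : Phi h v ∈ (Finset.univ.filter (fun v : W => v ≠ 0 ∧ qW v = 0)) := by
      rw [Finset.mem_filter]
      exact ⟨Finset.mem_univ _, fun e => hv0 (Phi_zero_iff h e), h2⟩
    rw [← heq, Finset.mem_image] at hmem
    obtain ⟨s, hs, hse⟩ := hmem
    have := Phi_inj h hse
    rw [Finset.mem_filter, this] at hs
    rw [h1] at hs
    revert hs
    simp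

/-- The square of an element of `Y`. -/
theorem Y_sq {y : G} (hy : InY S g t y) : y * y = pw t (qW (hat S y)) := by
  have hs := Phi_spec h (r := g⁻¹ * y * g) hy
  have e : g * (g⁻¹ * y * g) * g⁻¹ = y := by group
  rw [e] at hs
  rw [hs, qW_Phi]
  exact InY.sq h hy

/-! ### The commutator pairing -/

/-- A lift of a vector to `Y`. -/
noncomputable def ylift (h : NF S g t) (v : W) : G := Classical.choose (h.hat_surj v)

theorem ylift_spec (v : W) : InY S g t (ylift h v) ∧ hat S (ylift h v) = v := Classical.choose_spec (h.hat_surj v)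

/-- `Φ₂`: the label in `Q₀` of the `g`-conjugate of an element of `Y`. -/
noncomputable def Phi2 (h : NF S g t) (v : W) : W := lb S (g * ylift h v * g⁻¹)

theorem Phi2_spec {y : G} (hy : InY S g t y) : lb S (g * y * g⁻¹) = Phi2 h (hat S y) := by
  set l := ylift h (hat S y) with hl
  obtain ⟨h1, h2⟩ := ylift_spec h (hat S y)
  have h3 : hat S (l⁻¹ * y) = 0 := by
    have e1 := h.hat_mul (InY.inv h1) hy
    have e2 : hat S l⁻¹ + hat S l = 0 := by
      have e3 := h.hat_mul (InY.inv h1) h1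
      rw [inv_mul_cancel, h.hat_one] at e3
      exact e3.symm
    rw [e1]
    nth_rewrite 2 [← h2]
    exact e2
  obtain ⟨α, β, e⟩ := h.of_hat (InY.mul (InY.inv h1) hy) h3
  have e2 : y = l * dd t z α β := by rw [← e, hl]; group
  have e3 : g * y * g⁻¹ = (g * l * g⁻¹) * dd t z β α := by
    rw [e2, ← h.dd_conj α β]; group
  rw [e3, InQ0.lb_mul h (InQ0.of_Y h h1) (h.dd_InQ0 β α), h.lb_dd, add_zero]
  rfl

theorem Phi2_add (u v : W) : Phi2 h (u + v) = Phi2 h u + Phi2 h v := by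
  obtain ⟨h1, h2⟩ := ylift_spec h u
  obtain ⟨h3, h4⟩ := ylift_spec h v
  have e := Phi2_spec h (InY.mul h1 h3)
  rw [h.hat_mul h1 h3, h2, h4] at e
  rw [← e]
  have e2 : g * (ylift h u * ylift h v) * g⁻¹ = (g * ylift h u * g⁻¹) * (g * ylift h v * g⁻¹) := by group
  rw [e2, InQ0.lb_mul h (InQ0.of_Y h h1) (InQ0.of_Y h h3)]
  rfl

theorem Phi2_zero_iff {v : W} (h0 : Phi2 h v = 0) : v = 0 := by
  obtain ⟨h1, h2⟩ := ylift_spec h v
  obtain ⟨α, β, e⟩ := h.of_lb (InQ0.of_Y h h1) h0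
  have e2 : ylift h v = dd t z β α := by
    rw [← h.dd_conj' α β, ← e]; group
  rw [← h2, e2, h.hat_dd]

theorem Phi2_inj : Function.Injective (Phi2 h) := by
  intro u v e
  have h1 : Phi2 h (u + v) = 0 := by
    rw [Phi2_add, e, W_add_self]
  have h2 := Phi2_zero_iff h h1
  calc u = u + v + v := by rw [add_assoc, W_add_self, add_zero]
    _ = v := by rw [h2, zero_add]

/-- The form computing the `z`-exponent. -/
noncomputable def FF (h : NF S g t) (v w : W) : ZMod 2 := bW (Phi2 h w) (Phi h v)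

theorem kappa2 {x y : G} (hx : InQ0 S t x) (hy : InY S g t y) :
    y * x * y⁻¹ * x⁻¹ = dd t z (bW (lb S x) (hat S y)) (FF h (lb S x) (hat S y)) := by
  obtain ⟨β, hβ⟩ := h.kappa hx hy
  have hy₁ := InQ0.of_Y h hy
  have hx₁ := InY.of_Q0 (g := g) hx
  obtain ⟨β', hβ'⟩ := h.kappa hy₁ hx₁
  have e1 : g * (y * x * y⁻¹ * x⁻¹) * g⁻¹ * ((g * x * g⁻¹) * (g * y * g⁻¹) * (g * x * g⁻¹)⁻¹ * (g * y * g⁻¹)⁻¹) = 1 := by group
  rw [hβ, hβ', h.dd_conj, h.dd_mul] at e1
  obtain ⟨e2, e3⟩ := h.dd_eq_one e1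
  have key : ∀ a b : ZMod 2, a + b = 0 → a = b := by decide
  have e4 := key _ _ e2
  rw [Phi2_spec h hy, Phi_spec h hx] at e4
  rw [hβ, e4]
  rfl

theorem FF_add_left (u v w : W) : FF h (u + v) w = FF h u w + FF h v w := by
  show bW _ _ = bW _ _ + bW _ _
  rw [Phi_add, bW_add_right]

theorem FF_add_right (u v w : W) : FF h u (v + w) = FF h u v + FF h u w := by
  show bW _ _ = bW _ _ + bW _ _
  rw [Phi2_add, bW_add_left]

theorem FF_inv {a c : W} (ha : qW a = 1) (hc : qW c = 1) (u v : W) : FF h (rr a c u) (rr a c v) = FF h u v := by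
  obtain ⟨n, hn, hnv⟩ := h.exists_rr ha hc
  obtain ⟨h1, h2⟩ := lift_spec h u
  obtain ⟨h3, h4⟩ := ylift_spec h v
  have e1 := h.kappa2 h1 h3
  have e2 := h.kappa2 (InQ0.conj h hn h1) (InY.conj h hn h3)
  have e3 : (n * ylift h v * n⁻¹) * (n * lift h u * n⁻¹) * (n * ylift h v * n⁻¹)⁻¹ * (n * lift h u * n⁻¹)⁻¹ =
      n * (ylift h v * lift h u * (ylift h v)⁻¹ * (lift h u)⁻¹) * n⁻¹ := by group
  rw [e3, e1] at e2
  rw [h2, h4] at e2
  rw [InQ0.conj_lb h hn h1, h.hat_conj hn h3, hnv, hnv, h2, h4] at e2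
  have e4 : n * dd t z (bW u v) (FF h u v) * n⁻¹ = dd t z (bW u v) (FF h u v) := by
    rw [InN.cdd hn]; group
  rw [e4] at e2
  exact ((h.dd_inj e2).2).symm

theorem Phi_surj (w : W) : ∃ v, Phi h v = w :=
  (Finite.injective_iff_surjective.1 (Phi_inj h)) w

theorem Phi2_surj (w : W) : ∃ v, Phi2 h v = w :=
  (Finite.injective_iff_surjective.1 (Phi2_inj h)) w

theorem FF_eq (u v : W) : FF h u v = bW u v := by
  apply invariant_form (FF h) (FF_add_left h) (FF_add_right h) (fun a c ha hc u v => FF_inv h ha hc u v)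
  obtain ⟨u₁, hu₁⟩ := Phi_surj h m₁
  obtain ⟨v₂, hv₂⟩ := Phi2_surj h m₂
  refine ⟨u₁, v₂, ?_⟩
  show bW _ _ ≠ 0
  rw [hu₁, hv₂, bW_comm, bm]
  decide

/-- The commutator of an element of `Y` and an element of `Q₀`. -/
theorem kappa3 {x y : G} (hx : InQ0 S t x) (hy : InY S g t y) :
    y * x * y⁻¹ * x⁻¹ = dd t z (bW (lb S x) (hat S y)) (bW (lb S x) (hat S y)) := by
  rw [h.kappa2 hx hy, FF_eq]

end NF

end Cfsg.Agent.Lib.SuzInv.Core
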