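import Cfsg.Agent.Lib.SuzInv.Core3

/-!
# Suzuki type: the involutions of `C(z)` up to conjugacy
-/

set_option autoImplicit false
set_option linter.unusedSectionVars false
set_option linter.unusedVariables false
set_option maxRecDepth 100000
set_option synthInstance.maxSize 2000
set_option synthInstance.maxHeartbeats 0

namespace Cfsg.Agent.Lib.SuzInv.Core

open Cfsg Matrix Cfsg.Agent.Lib.SuzInv.Defs Cfsg.Agent.Lib.SuzInv.Basic Cfsg.Agent.Lib.SuzInv.Refl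
  Cfsg.Agent.Lib.SuzInv.OmFacts Cfsg.Agent.Lib.SuzInv.WF

variable {G : Type*} [Group G] {z : G}

/-- Isometries acting trivially on `W` and fixing `τ₀` are in the Siegel group. -/
theorem isA_of_Ac {s : OO} (h1 : act s τ₀ = τ₀) (h2 : ∀ v, Ac s v = v) : IsA s := by
  refine ⟨h1, fun u hu => ?_⟩
  have e := Ac_PP h1 hu
  rw [h2] at e
  rcases PP_eq _ _ (act_per h1 hu) hu e with h | h
  · left; rw [h, V_add_self]
  · right; rw [h, add_assoc, add_comm τ₀, ← add_assoc, V_add_self, zero_add]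

/-- Induction on `W` along the basis `m₁, m₂, Y0, R0`. -/
theorem W_induct {T : W → Prop} (h0 : T 0) (hadd : ∀ u v, T u → T v → T (u + v)) (h1 : T m₁) (h2 : T m₂) (h3 : T Y0) (h4 : T R0) :
    ∀ v, T v := by
  have hs : ∀ (c : ZMod 2) (v : W), T v → T (c • v) := by
    intro c v hv
    rcases zmod2_cases c with rfl | rfl
    · rw [zero_smul]; exact h0
    · rw [one_smul]; exact hv
  have key : ∀ v : W, ∃ a b c d : ZMod 2, v = a • m₁ + b • m₂ + c • Y0 + d • R0 := by decide +kernel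
  intro v
  obtain ⟨a, b, c, d, rfl⟩ := key v
  exact hadd _ _ (hadd _ _ (hadd _ _ (hs _ _ h1) (hs _ _ h2)) (hs _ _ h3)) (hs _ _ h4)

/-- Images of `m₁`, `m₂` in `M`. -/
theorem M_cases : ∀ a₁ a₂ : W, (qW a₁ = 0 ∧ qW a₂ = 0 ∧ bW a₁ a₂ = 1 ∧ bW a₁ Y0 = 0 ∧ bW a₂ Y0 = 0 ∧ bW a₁ R0 = 0 ∧ bW a₂ R0 = 0) →
    (a₁ = m₁ ∧ a₂ = m₂) ∨ (a₁ = m₂ ∧ a₂ = m₁) := by decide +kernel

namespace NF

variable {S : Setup z} {g t : G} (h : NF S g t)
include h

theorem dd_left (α : ZMod 2) : dd t z α 0 = pw t α := by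
  show pw t α * pw z 0 = _
  rw [pw_zero, mul_one]

theorem dd_right (β : ZMod 2) : dd t z 0 β = pw z β := by
  show pw t 0 * pw z β = _
  rw [pw_zero, one_mul]

theorem dd_zero : dd t z 0 0 = 1 := by
  show pw t 0 * pw z 0 = _
  rw [pw_zero, one_mul, pw_zero]

theorem dd_inv (α β : ZMod 2) : (dd t z α β)⁻¹ = dd t z α β := inv_eq_of_mul_eq_one_left (h.dd_self α β)

/-- The square of `y x`. -/
theorem sq_yx {x y : G} (hx : InQ0 S t x) (hy : InY S g t y) :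
    (y * x) * (y * x) = dd t z (bW (lb S x) (hat S y) + qW (hat S y)) (bW (lb S x) (hat S y) + qW (lb S x)) := by
  set b := bW (lb S x) (hat S y) with hb
  have hc := h.kappa3 hx hy
  rw [← hb] at hc
  have e1 : x * y = dd t z b b * y * x := by
    have e0 : y * x = dd t z b b * x * y := by rw [← hc]; group
    calc x * y = dd t z b b * (dd t z b b * x * y) := by
          rw [← mul_assoc, ← mul_assoc, h.dd_self, one_mul]
      _ = dd t z b b * (y * x) := by rw [e0]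
      _ = _ := by group
  calc (y * x) * (y * x) = y * (x * y) * x := by group
    _ = y * (dd t z b b * y * x) * x := by rw [e1]
    _ = (y * dd t z b b) * y * x * x := by group
    _ = dd t z b b * y * y * x * x := by rw [InN.cdd (InY.inN h hy)]
    _ = dd t z b b * (y * y) * (x * x) := by group
    _ = _ := by
      rw [h.Y_sq hy, InQ0.sq h hx, ← h.dd_left, ← h.dd_right, h.dd_mul, h.dd_mul, add_zero, add_zero]

/-- The equations for an involution. -/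
theorem invol_eq {x y : G} (hx : InQ0 S t x) (hy : InY S g t y) (h2 : (y * x) * (y * x) = 1) :
    bW (lb S x) (hat S y) = qW (hat S y) ∧ bW (lb S x) (hat S y) = qW (lb S x) := by
  rw [h.sq_yx hx hy] at h2
  obtain ⟨e1, e2⟩ := h.dd_eq_one h2
  have key : ∀ a b : ZMod 2, a + b = 0 → a = b := by decide
  exact ⟨key _ _ e1, key _ _ e2⟩

theorem π_pw_t (α : ZMod 2) : S.π (pw t α) = α • τ₀ := by
  have := h.π_dd α 0
  rwa [h.dd_left] at this

theorem pw_t_mem (α : ZMod 2) : pw t α ∈ S.Q := by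
  rcases pw_cases t α with e | e <;> rw [e]
  · exact S.Q.one_mem
  · exact h.tQ

theorem exists_y_of_isA {s : OO} (hs : IsA s) : ∃ y, InY S g t y ∧ S.ψ y = s := by
  obtain ⟨y, hy, hyh⟩ := h.hat_surj (PP (dl s))
  exact ⟨y, hy, (InY.isA h hy).eq_of_dl hs hyh⟩

end NF

theorem isA_conj {w w₁ : OO} {τ : V} (hτ1 : act w τ = τ) (hτ2 : ∀ u, bV u τ = 0 → act w u + u = 0 ∨ act w u + u = τ)
    (hw₁ : act w₁ τ = τ₀) : IsA (w₁ * w * w₁⁻¹) := by
  have e0 : act w₁⁻¹ τ₀ = τ := by rw [← hw₁, act_inv]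
  refine ⟨by rw [act_mul, act_mul, e0, hτ1, hw₁], fun u hu => ?_⟩
  have e1 : bV (act w₁⁻¹ u) τ = 0 := by
    rw [← e0, b_act, b_τ₀, hu]
  rw [act_mul, act_mul]
  rcases hτ2 _ e1 with e2 | e2
  · left
    have : act w (act w₁⁻¹ u) = act w₁⁻¹ u := V_eq_of_add_eq_zero e2
    rw [this, act_inv', V_add_self]
  · right
    have e3 : act w (act w₁⁻¹ u) = act w₁⁻¹ u + τ := by
      rw [← e2, add_comm (act w _), ← add_assoc, V_add_self, zero_add]
    rw [e3, act_add, act_inv', hw₁, add_comm u, add_assoc, V_add_self, add_zero]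

theorem PP_smul_τ₀ (α : ZMod 2) : PP (α • τ₀) = 0 := by
  rcases zmod2_cases α with rfl | rfl
  · rw [zero_smul]; rfl
  · rw [one_smul, PP_τ₀]

namespace NF

variable {S : Setup z} {g t : G} (h : NF S g t)
include h

/-- An involution of `C(z)` outside `Q` is conjugate into `Y Q₀`. -/
theorem form_lemma {a : G} (ha : a * z = z * a) (haa : a * a = 1) (hQ : a ∉ S.Q) :
    ∃ c y x, c * z = z * c ∧ InY S g t y ∧ InQ0 S t x ∧ c * a * c⁻¹ = y * x := by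
  have hw : S.ψ a ∈ commutator OO := S.ψmem a ha
  have hww : S.ψ a * S.ψ a = 1 := by
    rw [← S.ψmul a a ha ha, haa, ψ_one]
  have hw1 : S.ψ a ≠ 1 := fun e => hQ ((S.ψker a ha).1 e)
  obtain ⟨τ, hτq, hτ0, hτ1, hτ2⟩ := inv_mem_A _ hw hww hw1
  obtain ⟨w₁, hw₁, hw₁τ⟩ := trans_sing hτq hτ0 q_τ₀ τ₀_ne
  obtain ⟨c, hc, hcw⟩ := S.ψsurj w₁ hw₁
  have hA := isA_conj hτ1 hτ2 hw₁τ
  set a' := c * a * c⁻¹ with ha'
  have hcinv := comm_inv hc
  have hca : (c * a) * z = z * (c * a) := comm_mul hc ha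
  have ha'z : a' * z = z * a' := comm_mul hca hcinv
  have hψ : S.ψ a' = w₁ * S.ψ a * w₁⁻¹ := by
    rw [ha', S.ψmul _ _ hca hcinv, S.ψmul _ _ hc ha, ψ_inv S hc, hcw]
  rw [← hψ] at hA
  obtain ⟨y, hy, hys⟩ := h.exists_y_of_isA hA
  have hyN := InY.inN h hy
  have hx : y⁻¹ * a' ∈ S.Q := by
    apply (S.ψker _ (comm_mul (comm_inv hyN.1) ha'z)).1
    rw [S.ψmul _ _ (comm_inv hyN.1) ha'z, ψ_inv S hyN.1, hys, inv_mul_cancel]
  set x := y⁻¹ * a' with hxdef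
  have e : a' = y * x := by rw [hxdef]; group
  refine ⟨c, y, x, hc, hy, (h.InQ0_iff hx).2 ?_, e⟩
  by_contra hne
  have hx1 : S.π x y0 = 1 := by
    rcases zmod2_cases (S.π x y0) with e1 | e1
    · exact (hne e1).elim
    · exact e1
  have hsq : (y * x * y⁻¹) * (y * y) * x = 1 := by
    have h1 : a' * a' = 1 := by
      rw [ha']
      calc c * a * c⁻¹ * (c * a * c⁻¹) = c * (a * a) * c⁻¹ := by group
        _ = 1 := by rw [haa]; group
    rw [e] at h1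
    rw [← h1]; group
  have hyy : y * y ∈ S.Q := by
    rw [h.Y_sq hy]; exact h.pw_t_mem _
  have h2 := congrArg S.π hsq
  rw [π_one, S.πmul _ (S.Q.mul_mem (S.Qn y hyN.1 x hx) hyy) _ hx, S.πmul _ (S.Qn y hyN.1 x hx) _ hyy, S.πψ y hyN.1 x hx, hys,
    h.Y_sq hy, h.π_pw_t] at h2
  have h3 := congrArg PP h2
  have e3 : act (S.ψ a') (S.π x) + (qW (hat S y)) • τ₀ + S.π x = (act (S.ψ a') (S.π x) + S.π x) + (qW (hat S y)) • τ₀ := by abel
  rw [e3, PP_add, PP_smul_τ₀, hA.moved hx1, add_zero] at h3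
  have h6 : S.ψ a' = 1 := hA.eq_one h3
  have h7 : a' ∈ S.Q := (S.ψker _ ha'z).1 h6
  apply hQ
  have e4 : a = c⁻¹ * a' * c⁻¹⁻¹ := by rw [ha']; group
  rw [e4]
  exact S.Qn _ hcinv _ h7

theorem inv_Q {x : G} (hx : x ∈ S.Q) (hxx : x * x = 1) (hx1 : x ≠ 1) : ∃ c, c * x * c⁻¹ = z := by
  by_cases hxz : x = z
  · exact ⟨1, by rw [hxz]; group⟩
  · obtain ⟨c, hc⟩ := conj_of_sing S h.tQ h.πt hx hxx hx1 hxz
    refine ⟨g * c, ?_⟩
    have e : (g * c) * x * (g * c)⁻¹ = g * (c * x * c⁻¹) * g⁻¹ := by group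
    rw [e, hc, h.gt]

theorem inv_Y {y : G} (hy : InY S g t y) (hyy : y * y = 1) (hy1 : y ≠ 1) : ∃ c, c * y * c⁻¹ = z := by
  have h1 : g⁻¹ * y * g ∈ S.Q := hy.1
  have h2 : (g⁻¹ * y * g) * (g⁻¹ * y * g) = 1 := by
    calc (g⁻¹ * y * g) * (g⁻¹ * y * g) = g⁻¹ * (y * y) * g := by group
      _ = 1 := by rw [hyy]; group
  have h3 : g⁻¹ * y * g ≠ 1 := by
    intro e
    apply hy1
    have : y = g * (g⁻¹ * y * g) * g⁻¹ := by group
    rw [this, e]; group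
  obtain ⟨c, hc⟩ := h.inv_Q h1 h2 h3
  refine ⟨c * g⁻¹, ?_⟩
  rw [← hc]; group

/-- Conjugation by an element with label outside `τ₀^⊥`. -/
theorem x1_conj {x₁ y r : G} (hx₁ : x₁ ∈ S.Q) (hv : S.π x₁ = v₁) (hy : InY S g t y) (hr : InQ0 S t r) :
    ∃ r', InQ0 S t r' ∧ lb S r' = lb S r + hat S y ∧ x₁ * (y * r) * x₁⁻¹ = y * r' := by
  have hyN := InY.inN h hy
  have hs : S.ψ y * S.ψ y = 1 := by
    rw [← S.ψmul y y hyN.1 hyN.1, h.Y_sq hy]
    exact ψ_of_Q S (h.pw_t_mem _)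
  have hsi : (S.ψ y)⁻¹ = S.ψ y := inv_eq_of_mul_eq_one_left hs
  have hm : y⁻¹ * x₁ * y ∈ S.Q := by
    have := S.Qn y⁻¹ (comm_inv hyN.1) x₁ hx₁
    rwa [inv_inv] at this
  have hm2 : S.π (y⁻¹ * x₁ * y) = act (S.ψ y) v₁ := by
    have := S.πψ y⁻¹ (comm_inv hyN.1) x₁ hx₁
    rwa [inv_inv, ψ_inv S hyN.1, hsi, hv] at this
  have hrQ : (y⁻¹ * x₁ * y) * r * x₁⁻¹ ∈ S.Q := S.Q.mul_mem (S.Q.mul_mem hm hr.1) (S.Q.inv_mem hx₁)
  have hπ : S.π ((y⁻¹ * x₁ * y) * r * x₁⁻¹) = S.π r + dl (S.ψ y) := by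
    rw [S.πmul _ (S.Q.mul_mem hm hr.1) _ (S.Q.inv_mem hx₁), S.πmul _ hm _ hr.1, π_inv S hx₁, hm2, hv]
    show _ = S.π r + (act (S.ψ y) v₁ + v₁)
    abel
  have hy0 : S.π ((y⁻¹ * x₁ * y) * r * x₁⁻¹) y0 = 0 := by
    rw [hπ]
    show S.π r y0 + dl (S.ψ y) y0 = 0
    rw [InQ0.y0 h hr, dl_y0 (InN.fix h hyN), add_zero]
  refine ⟨_, (h.InQ0_iff hrQ).2 hy0, ?_, by group⟩
  show PP _ = PP _ + PP _
  rw [hπ, PP_add]

/-- Conjugation of `y r` by an element of `Q₀`. -/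
theorem conj_by_Q0 {x y r : G} (hx : InQ0 S t x) (hy : InY S g t y) (hr : InQ0 S t r) :
    x * (y * r) * x⁻¹ = dd t z (bW (lb S x) (hat S y)) (bW (lb S x) (hat S y) + bW (lb S x) (lb S r)) * (y * r) := by
  set b₁ := bW (lb S x) (hat S y) with hb₁
  set b₂ := bW (lb S x) (lb S r) with hb₂
  have h1 : x * y * x⁻¹ = dd t z b₁ b₁ * y := by
    have e := h.kappa3 hx hy
    rw [← hb₁] at e
    have e2 : x * y * x⁻¹ * y⁻¹ = (dd t z b₁ b₁)⁻¹ := by rw [← e]; group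
    rw [h.dd_inv] at e2
    rw [← e2]; group
  have h2 : x * r * x⁻¹ = dd t z 0 b₂ * r := by
    have e := InQ0.comm h hx hr
    rw [← hb₂, ← h.dd_right] at e
    rw [← e]; group
  have h3 : y * dd t z 0 b₂ = dd t z 0 b₂ * y := InN.cdd (InY.inN h hy) _ _
  calc x * (y * r) * x⁻¹ = (x * y * x⁻¹) * (x * r * x⁻¹) := by group
    _ = dd t z b₁ b₁ * (y * dd t z 0 b₂) * r := by rw [h1, h2]; group
    _ = dd t z b₁ b₁ * dd t z 0 b₂ * (y * r) := by rw [h3]; group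
    _ = _ := by rw [h.dd_mul, add_zero]

theorem of_same_hat {y y' : G} (hy : InY S g t y) (hy' : InY S g t y') (e : hat S y = hat S y') : ∃ α β, y = y' * dd t z α β := by
  have h1 : hat S (y'⁻¹ * y) = 0 := by
    rw [h.hat_mul (InY.inv hy') hy, e]
    have e3 := h.hat_mul (InY.inv hy') hy'
    rw [inv_mul_cancel, h.hat_one] at e3
    exact e3.symm
  obtain ⟨α, β, e2⟩ := h.of_hat (InY.mul (InY.inv hy') hy) h1
  exact ⟨α, β, by rw [← e2]; group⟩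

theorem of_same_lb {x x' : G} (hx : InQ0 S t x) (hx' : InQ0 S t x') (e : lb S x = lb S x') : ∃ α β, x = x' * dd t z α β := by
  have h1 : lb S (x'⁻¹ * x) = 0 := by
    rw [InQ0.lb_mul h (InQ0.inv hx') hx, InQ0.lb_inv h hx', e, W_add_self]
  obtain ⟨α, β, e2⟩ := h.of_lb (InQ0.mul (InQ0.inv hx') hx) h1
  exact ⟨α, β, by rw [← e2]; group⟩

/-- The labels of a product `y r` are unique. -/
theorem labels_unique {y y' r r' : G} (hy : InY S g t y) (hy' : InY S g t y') (hr : InQ0 S t r) (hr' : InQ0 S t r')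
    (e : y * r = y' * r') : hat S y = hat S y' ∧ lb S r = lb S r' := by
  have h1 : y'⁻¹ * y = r' * r⁻¹ := by
    calc y'⁻¹ * y = y'⁻¹ * (y * r) * r⁻¹ := by group
      _ = y'⁻¹ * (y' * r') * r⁻¹ := by rw [e]
      _ = _ := by group
  obtain ⟨α, β, e2⟩ := h.inter (x := y'⁻¹ * y) (by rw [h1]; exact InQ0.mul hr' (InQ0.inv hr)) (InY.mul (InY.inv hy') hy)
  constructor
  · have e3 : y = y' * dd t z α β := by rw [← e2]; group
    rw [e3, h.hat_mul hy' (h.dd_InY α β), h.hat_dd, add_zero]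
  · have e3 : r' = dd t z α β * r := by
      rw [← e2, h1]; group
    rw [e3, InQ0.lb_mul h (h.dd_InQ0 α β) hr, h.lb_dd, zero_add]

/-- The involution `u₀`. -/
noncomputable def uu (h : NF S g t) : G := ylift h Y0 * lift h R0

theorem uu_y : InY S g t (ylift h Y0) := (ylift_spec h Y0).1
theorem uu_yh : hat S (ylift h Y0) = Y0 := (ylift_spec h Y0).2
theorem uu_r : InQ0 S t (lift h R0) := (lift_spec h R0).1
theorem uu_rl : lb S (lift h R0) = R0 := (lift_spec h R0).2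

theorem uu_sq : uu h * uu h = 1 := by
  show (ylift h Y0 * lift h R0) * (ylift h Y0 * lift h R0) = 1
  rw [h.sq_yx (uu_r h) (uu_y h), uu_yh, uu_rl, bR, qY0, qR0]
  have : (1 : ZMod 2) + 1 = 0 := by decide
  rw [this, h.dd_zero]

theorem uu_z : uu h * z = z * uu h := by
  exact comm_mul (InY.inN h (uu_y h)).1 (InQ0.inN h (uu_r h)).1

theorem uu_t : uu h * t = t * uu h := by
  have e1 := (InY.inN h (uu_y h)).2
  have e2 := (InQ0.inN h (uu_r h)).2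
  show (ylift h Y0 * lift h R0) * t = t * (ylift h Y0 * lift h R0)
  rw [mul_assoc, e2, ← mul_assoc, e1, mul_assoc]

theorem uu_ψ : S.ψ (uu h) = S.ψ (ylift h Y0) := by
  show S.ψ (ylift h Y0 * lift h R0) = _
  rw [S.ψmul _ _ (InY.inN h (uu_y h)).1 (InQ0.inN h (uu_r h)).1, ψ_of_Q S (uu_r h).1, mul_one]

theorem uu_not_Q : uu h ∉ S.Q := by
  intro hu
  have h1 : S.ψ (ylift h Y0) = 1 := by
    rw [← uu_ψ]; exact ψ_of_Q S hu
  have h2 := uu_yh h
  have h3 : hat S (ylift h Y0) = 0 := by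
    show PP (dl (S.ψ _)) = 0
    rw [h1]
    show PP (act 1 v₁ + v₁) = 0
    rw [act_one, V_add_self]
    rfl
  rw [h3] at h2
  revert h2
  decide +kernel

theorem uu_ne_one : uu h ≠ 1 := by
  intro e
  apply uu_not_Q h
  rw [e]
  exact S.Q.one_mem

theorem uu_ne_z : uu h ≠ z := by
  intro e
  apply uu_not_Q h
  rw [e]
  exact S.zQ

/-- Involutions of type D are conjugate to `u₀` under `N`. -/
theorem type_D {y x : G} (hy : InY S g t y) (hx : InQ0 S t x) (hq : qW (hat S y) = 1) (h2 : (y * x) * (y * x) = 1) :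
    ∃ c, InN z t c ∧ c * (y * x) * c⁻¹ = uu h := by
  obtain ⟨e1, e2⟩ := h.invol_eq hx hy h2
  rw [hq] at e1
  rw [e1] at e2
  obtain ⟨a, c, ha, hc, e⟩ := pair1 (hat S y) hq
  obtain ⟨n₁, hn₁, hn₁v⟩ := h.exists_rr ha hc
  have h3 : hat S (n₁ * y * n₁⁻¹) = Y0 := by
    rw [h.hat_conj hn₁ hy, hn₁v, e]
  have h4 : lb S (n₁ * x * n₁⁻¹) = rr a c (lb S x) := by
    rw [InQ0.conj_lb h hn₁ hx, hn₁v]
  have h5 : qW (rr a c (lb S x)) = 1 := by
    rw [← hn₁v, Ac_q (InN.fix h hn₁), ← e2]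
  have h6 : bW (rr a c (lb S x)) Y0 = 1 := by
    rw [← e, rr_b, e1]
  obtain ⟨a', c', ha', hc', e3, e4⟩ := pair2 _ h5 h6
  obtain ⟨n₂, hn₂, hn₂v⟩ := h.exists_rr ha' hc'
  have hy₂ := InY.conj h hn₂ (InY.conj h hn₁ hy)
  have hx₂ := InQ0.conj h hn₂ (InQ0.conj h hn₁ hx)
  have h7 : hat S (n₂ * (n₁ * y * n₁⁻¹) * n₂⁻¹) = Y0 := by
    rw [h.hat_conj hn₂ (InY.conj h hn₁ hy), h3, hn₂v, e3]
  have h8 : lb S (n₂ * (n₁ * x * n₁⁻¹) * n₂⁻¹) = R0 := by
    rw [InQ0.conj_lb h hn₂ (InQ0.conj h hn₁ hx), h4, hn₂v, e4]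
  obtain ⟨α₁, β₁, e5⟩ := h.of_same_hat hy₂ (uu_y h) (h7.trans (uu_yh h).symm)
  obtain ⟨α₂, β₂, e6⟩ := h.of_same_lb hx₂ (uu_r h) (h8.trans (uu_rl h).symm)
  have h9 : ∀ α β : ZMod 2, ∃ v : W, bW v Y0 = α ∧ bW v R0 = α + β := by decide +kernel
  obtain ⟨v, hv1, hv2⟩ := h9 (α₁ + α₂) (β₁ + β₂)
  obtain ⟨h10, h11⟩ := lift_spec h v
  have h12 := h.conj_by_Q0 h10 (uu_y h) (uu_r h)
  rw [h11, uu_yh, uu_rl, hv1, hv2] at h12
  have h13 : (α₁ + α₂) + ((α₁ + α₂) + (β₁ + β₂)) = β₁ + β₂ := by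
    rw [← add_assoc, zmod2_add_self, zero_add]
  rw [h13] at h12
  refine ⟨lift h v * (n₂ * n₁), InN.mul (InQ0.inN h h10) (InN.mul hn₂ hn₁), ?_⟩
  set u := ylift h Y0 * lift h R0 with hu
  have h14 : (n₂ * n₁) * (y * x) * (n₂ * n₁)⁻¹ = u * dd t z (α₁ + α₂) (β₁ + β₂) := by
    calc (n₂ * n₁) * (y * x) * (n₂ * n₁)⁻¹ = (n₂ * (n₁ * y * n₁⁻¹) * n₂⁻¹) * (n₂ * (n₁ * x * n₁⁻¹) * n₂⁻¹) := by group
      _ = (ylift h Y0 * dd t z α₁ β₁) * (lift h R0 * dd t z α₂ β₂) := by rw [e5, e6]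
      _ = ylift h Y0 * (dd t z α₁ β₁ * lift h R0) * dd t z α₂ β₂ := by group
      _ = ylift h Y0 * (lift h R0 * dd t z α₁ β₁) * dd t z α₂ β₂ := by rw [InN.cdd (InQ0.inN h (uu_r h))]
      _ = u * (dd t z α₁ β₁ * dd t z α₂ β₂) := by rw [hu]; group
      _ = _ := by rw [h.dd_mul]
  have hdu : u * dd t z (α₁ + α₂) (β₁ + β₂) = dd t z (α₁ + α₂) (β₁ + β₂) * u := by
    apply (InN.cdd (InN.mul (InY.inN h (uu_y h)) (InQ0.inN h (uu_r h))) _ _)
  calc (lift h v * (n₂ * n₁)) * (y * x) * (lift h v * (n₂ * n₁))⁻¹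
      = lift h v * ((n₂ * n₁) * (y * x) * (n₂ * n₁)⁻¹) * (lift h v)⁻¹ := by group
    _ = lift h v * (dd t z (α₁ + α₂) (β₁ + β₂) * u) * (lift h v)⁻¹ := by rw [h14, hdu]
    _ = (lift h v * dd t z (α₁ + α₂) (β₁ + β₂) * (lift h v)⁻¹) * (lift h v * u * (lift h v)⁻¹) := by group
    _ = dd t z (α₁ + α₂) (β₁ + β₂) * (dd t z (α₁ + α₂) (β₁ + β₂) * u) := by
        rw [h12, InN.cdd (InQ0.inN h h10)]
        group
    _ = u := by rw [← mul_assoc, h.dd_self, one_mul]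

/-- An involution of `C(z)` is conjugate to `z` or to `u₀`. -/
theorem inv_C {a : G} (ha : a * z = z * a) (haa : a * a = 1) (ha1 : a ≠ 1) : (∃ c, c * a * c⁻¹ = z) ∨ (∃ c, c * a * c⁻¹ = uu h) := by
  by_cases hQ : a ∈ S.Q
  · exact Or.inl (h.inv_Q hQ haa ha1)
  obtain ⟨c, y, x, hc, hy, hx, e⟩ := h.form_lemma ha haa hQ
  have h2 : (y * x) * (y * x) = 1 := by
    rw [← e]
    calc c * a * c⁻¹ * (c * a * c⁻¹) = c * (a * a) * c⁻¹ := by group
      _ = 1 := by rw [haa]; group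
  have hne : y * x ≠ 1 := by
    rw [← e]
    intro e1
    apply ha1
    have : a = c⁻¹ * (c * a * c⁻¹) * c := by group
    rw [this, e1]; group
  have hyx : y * x ∉ S.Q := by
    rw [← e]
    intro e1
    apply hQ
    have e2 : a = c⁻¹ * (c * a * c⁻¹) * c⁻¹⁻¹ := by group
    rw [e2]
    exact S.Qn _ (comm_inv hc) _ e1
  rcases zmod2_cases (qW (hat S y)) with hq | hq
  · left
    obtain ⟨e1, e2⟩ := h.invol_eq hx hy h2
    rw [hq] at e1
    rw [e1] at e2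
    have hy0 : hat S y ≠ 0 := by
      intro h0
      obtain ⟨α, β, e3⟩ := h.of_hat hy h0
      apply hyx
      rw [e3]
      exact S.Q.mul_mem (h.dd_mem α β) hx.1
    have key : ∃ c' y', InY S g t y' ∧ c' * (y * x) * c'⁻¹ = y' := by
      rcases class0 (hat S y) (lb S x) ⟨hy0, hq, e2.symm, e1⟩ with e3 | e3
      · obtain ⟨α, β, e4⟩ := h.of_lb hx e3
        exact ⟨1, y * x, by rw [e4]; exact InY.mul hy (h.dd_InY α β), by group⟩
      · obtain ⟨x₁, hx₁, hv⟩ := S.πsurj v₁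
        obtain ⟨r', hr', hl, e4⟩ := h.x1_conj hx₁ hv hy hx
        rw [e3, W_add_self] at hl
        obtain ⟨α, β, e5⟩ := h.of_lb hr' hl
        exact ⟨x₁, y * r', by rw [e5]; exact InY.mul hy (h.dd_InY α β), e4⟩
    obtain ⟨c', y', hy', e3⟩ := key
    have h3 : y' * y' = 1 := by
      rw [← e3]
      calc c' * (y * x) * c'⁻¹ * (c' * (y * x) * c'⁻¹) = c' * ((y * x) * (y * x)) * c'⁻¹ := by group
        _ = 1 := by rw [h2]; group
    have h4 : y' ≠ 1 := by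
      rw [← e3]
      intro e4
      apply hne
      have : y * x = c'⁻¹ * (c' * (y * x) * c'⁻¹) * c' := by group
      rw [this, e4]; group
    obtain ⟨c₃, hc₃⟩ := h.inv_Y hy' h3 h4
    refine ⟨c₃ * c' * c, ?_⟩
    rw [← hc₃, ← e3, ← e]; group
  · right
    obtain ⟨c', _, e3⟩ := h.type_D hy hx hq h2
    refine ⟨c' * c, ?_⟩
    rw [← e3, ← e]; group

end NF

end Cfsg.Agent.Lib.SuzInv.Core
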