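import Cfsg.Agent.Lib.SuzInv.Core4

/-!
# Suzuki type: `u₀` is not conjugate to `z`: the group `C(z) ∩ C(u₀)` and its characteristic subgroups
-/

set_option autoImplicit false
set_option linter.unusedSectionVars false
set_option linter.unusedVariables false
set_option maxRecDepth 100000
set_option synthInstance.maxSize 2000
set_option synthInstance.maxHeartbeats 0

namespace Cfsg.Agent.Lib.SuzInv.Core

open Cfsg Matrix Cfsg.Agent.Lib.SuzInv.Defs Cfsg.Agent.Lib.SuzInv.Basic Cfsg.Agent.Lib.SuzInv.Refl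
  Cfsg.Agent.Lib.SuzInv.OmFacts Cfsg.Agent.Lib.SuzInv.WF

variable {G : Type*} [Group G] {z : G}

/-- `C(z) ∩ C(u)`. -/
def SS (z u c : G) : Prop := c * z = z * c ∧ c * u = u * c
/-- The centre of `SS`. -/
def ZS (z u x : G) : Prop := SS z u x ∧ ∀ c, SS z u c → x * c = c * x
/-- The second centre of `SS`. -/
def BB (z u x : G) : Prop := SS z u x ∧ ∀ c, SS z u c → ZS z u (x * c * x⁻¹ * c⁻¹)
/-- The centraliser in `SS` of the second centre. -/
def KK (z u x : G) : Prop := SS z u x ∧ ∀ b, BB z u b → x * b = b * x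

section conj

variable {u n : G} (hn : ∀ c, SS z u c ↔ SS z u (n * c * n⁻¹))
include hn

theorem SS_inv {c : G} (hc : SS z u c) : SS z u (n⁻¹ * c * n) := by
  rw [hn]
  have e : n * (n⁻¹ * c * n) * n⁻¹ = c := by group
  rwa [e]

theorem ZS_conj {x : G} (hx : ZS z u x) : ZS z u (n * x * n⁻¹) := by
  refine ⟨(hn x).1 hx.1, fun c hc => ?_⟩
  have h1 := hx.2 _ (SS_inv hn hc)
  have e := comm_conj n h1
  have e2 : n * (n⁻¹ * c * n) * n⁻¹ = c := by group
  rwa [e2] at e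

theorem BB_conj {x : G} (hx : BB z u x) : BB z u (n * x * n⁻¹) := by
  refine ⟨(hn x).1 hx.1, fun c hc => ?_⟩
  have h1 := ZS_conj hn (hx.2 _ (SS_inv hn hc))
  have e : n * (x * (n⁻¹ * c * n) * x⁻¹ * (n⁻¹ * c * n)⁻¹) * n⁻¹ = n * x * n⁻¹ * c * (n * x * n⁻¹)⁻¹ * c⁻¹ := by group
  rwa [e] at h1

theorem hn_inv (c : G) : SS z u c ↔ SS z u (n⁻¹ * c * n⁻¹⁻¹) := by
  rw [inv_inv]
  constructor
  · exact SS_inv hn
  · intro h1
    have := (hn _).1 h1
    have e : n * (n⁻¹ * c * n) * n⁻¹ = c := by group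
    rwa [e] at this

theorem KK_conj {x : G} (hx : KK z u x) : KK z u (n * x * n⁻¹) := by
  refine ⟨(hn x).1 hx.1, fun b hb => ?_⟩
  have h1 : BB z u (n⁻¹ * b * n) := by
    have := BB_conj (hn_inv hn) hb
    rwa [inv_inv] at this
  have h2 := hx.2 _ h1
  have e := comm_conj n h2
  have e2 : n * (n⁻¹ * b * n) * n⁻¹ = b := by group
  rwa [e2] at e

end conj

theorem rW_add (a u v : W) : rW a (u + v) = rW a u + rW a v := by
  simp only [rW, bW_add_left, add_smul]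
  abel

theorem rW_rW : ∀ a v : W, rW a (rW a v) = v := by decide +kernel

theorem Ac_zero (s : OO) : Ac s 0 = 0 := by
  have h := Ac_add s 0 0
  rw [add_zero] at h
  have key : ∀ a : W, a = a + a → a = 0 := by decide +kernel
  exact key _ h

namespace NF

variable {S : Setup z} {g t : G} (h : NF S g t)
include h

/-- Nothing in `N` induces a reflection on `W`. -/
theorem rf_contra {c : G} (hc : InN z t c) {a : W} (ha : qW a = 1) (hA : ∀ v, Ac (S.ψ c) v = rW a v) : False := by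
  have h1 : act (S.ψ c * rf (inj a)) τ₀ = τ₀ := by
    rw [act_mul, rf_fix ha, InN.fix h hc]
  have h2 : ∀ v, Ac (S.ψ c * rf (inj a)) v = v := by
    intro v
    rw [Ac_mul (InN.fix h hc) (rf_fix ha), Ac_rf ha, hA, rW_rW]
  obtain ⟨y, hy, hys⟩ := h.exists_y_of_isA (isA_of_Ac h1 h2)
  have h3 : S.ψ c * rf (inj a) ∈ commutator OO := by
    rw [← hys]
    exact S.ψmem y (InY.inN h hy).1
  have h4 : rf (inj a) ∈ commutator OO := by
    have h5 := (commutator OO).mul_mem ((commutator OO).inv_mem (S.ψmem c hc.1)) h3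
    rwa [inv_mul_cancel_left] at h5
  exact rf_not_mem (by rw [q_inj, ha]) h4

/-- The image of the hyperbolic plane `M`. -/
theorem M_image {c : G} (hc : InN z t c) (h1 : bW (Ac (S.ψ c) m₁) Y0 = 0) (h2 : bW (Ac (S.ψ c) m₂) Y0 = 0)
    (h3 : bW (Ac (S.ψ c) m₁) R0 = 0) (h4 : bW (Ac (S.ψ c) m₂) R0 = 0) :
    (Ac (S.ψ c) m₁ = m₁ ∧ Ac (S.ψ c) m₂ = m₂) ∨ (Ac (S.ψ c) m₁ = m₂ ∧ Ac (S.ψ c) m₂ = m₁) := by
  have hf := InN.fix h hc
  exact M_cases _ _ ⟨by rw [Ac_q hf, qm₁], by rw [Ac_q hf, qm₂], by rw [Ac_b hf, bm], h1, h2, h3, h4⟩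

/-- An element of `N` fixing `Y0`, `R0` is trivial on `W`. -/
theorem Ac_of_fix {c : G} (hc : InN z t c) (h1 : Ac (S.ψ c) Y0 = Y0) (h2 : Ac (S.ψ c) R0 = R0) : ∀ v, Ac (S.ψ c) v = v := by
  have hf := InN.fix h hc
  have e1 : bW (Ac (S.ψ c) m₁) Y0 = 0 := by
    nth_rewrite 1 [← h1]
    rw [Ac_b hf]; decide +kernel
  have e2 : bW (Ac (S.ψ c) m₂) Y0 = 0 := by
    nth_rewrite 1 [← h1]
    rw [Ac_b hf]; decide +kernel
  have e3 : bW (Ac (S.ψ c) m₁) R0 = 0 := by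
    nth_rewrite 1 [← h2]
    rw [Ac_b hf]; decide +kernel
  have e4 : bW (Ac (S.ψ c) m₂) R0 = 0 := by
    nth_rewrite 1 [← h2]
    rw [Ac_b hf]; decide +kernel
  rcases h.M_image hc e1 e2 e3 e4 with ⟨e5, e6⟩ | ⟨e5, e6⟩
  · exact W_induct (T := fun v => Ac (S.ψ c) v = v) (Ac_zero _) (fun u v hu hv => by
      show Ac _ _ = _
      rw [Ac_add, hu, hv]) e5 e6 h1 h2
  · exfalso
    have hq : qW (m₁ + m₂) = 1 := by decide +kernel
    refine h.rf_contra hc hq ?_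
    refine W_induct (T := fun v => Ac (S.ψ c) v = rW (m₁ + m₂) v) ?_ (fun u v hu hv => ?_) ?_ ?_ ?_ ?_
    · rw [Ac_zero]; decide +kernel
    · rw [Ac_add, rW_add, hu, hv]
    · rw [e5]; decide +kernel
    · rw [e6]; decide +kernel
    · rw [h1]; decide +kernel
    · rw [h2]; decide +kernel

/-- The commutator of two elements of `Y`. -/
theorem bW_Phi (u v : W) : bW (Phi h u) (Phi h v) = bW u v := by
  have e1 := qW_add (Phi h u) (Phi h v)
  rw [← Phi_add, qW_Phi, qW_Phi, qW_Phi, qW_add] at e1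
  have key : ∀ a b c d : ZMod 2, a + b + c = a + b + d → d = c := by decide
  exact key _ _ _ _ e1

theorem InY.comm2 {y y' : G} (hy : InY S g t y) (hy' : InY S g t y') : y * y' * y⁻¹ * y'⁻¹ = pw t (bW (hat S y) (hat S y')) := by
  rw [InY.comm h hy hy', ← bW_Phi h, ← Phi_spec h hy, ← Phi_spec h hy']
  have e : ∀ w : G, g * (g⁻¹ * w * g) * g⁻¹ = w := by intro w; group
  rw [e, e]

/-- Conjugation of `y r` by an element of `Y`. -/
theorem conj_by_Y {y' y r : G} (hy' : InY S g t y') (hy : InY S g t y) (hr : InQ0 S t r) :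
    y' * (y * r) * y'⁻¹ = dd t z (bW (hat S y') (hat S y) + bW (lb S r) (hat S y')) (bW (lb S r) (hat S y')) * (y * r) := by
  set b₁ := bW (hat S y') (hat S y) with hb₁
  set b₂ := bW (lb S r) (hat S y') with hb₂
  have h1 : y' * y * y'⁻¹ = dd t z b₁ 0 * y := by
    have e := InY.comm2 h hy' hy
    rw [← hb₁, ← h.dd_left] at e
    rw [← e]; group
  have h2 : y' * r * y'⁻¹ = dd t z b₂ b₂ * r := by
    have e := h.kappa3 hr hy'
    rw [← hb₂] at e
    rw [← e]; group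
  have h3 : y * dd t z b₂ b₂ = dd t z b₂ b₂ * y := InN.cdd (InY.inN h hy) _ _
  calc y' * (y * r) * y'⁻¹ = (y' * y * y'⁻¹) * (y' * r * y'⁻¹) := by group
    _ = dd t z b₁ 0 * (y * dd t z b₂ b₂) * r := by rw [h1, h2]; group
    _ = dd t z b₁ 0 * dd t z b₂ b₂ * (y * r) := by rw [h3]; group
    _ = _ := by rw [h.dd_mul, zero_add]

/-! ### Membership -/

theorem SS_one : SS z (uu h) 1 := ⟨by group, by group⟩

theorem SS_z : SS z (uu h) z := ⟨rfl, (uu_z h).symm⟩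

theorem ZS_one : ZS z (uu h) 1 := ⟨h.SS_one, fun c _ => by group⟩

theorem ZS_z : ZS z (uu h) z := ⟨h.SS_z, fun c hc => hc.1.symm⟩

theorem SS_t : SS z (uu h) t := ⟨h.tz, (uu_t h).symm⟩

theorem SS_lift {v : W} (h1 : bW v Y0 = 0) (h2 : bW v R0 = 0) : SS z (uu h) (lift h v) := by
  obtain ⟨h3, h4⟩ := lift_spec h v
  refine ⟨S.Qc _ h3.1, ?_⟩
  have e := h.conj_by_Q0 h3 (uu_y h) (uu_r h)
  rw [h4, uu_yh, uu_rl, h1, h2, add_zero, h.dd_zero, one_mul] at e
  exact mul_inv_eq_iff_eq_mul.1 e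

theorem SS_ylift {v : W} (h1 : bW v Y0 = 0) (h2 : bW v R0 = 0) : SS z (uu h) (ylift h v) := by
  obtain ⟨h3, h4⟩ := ylift_spec h v
  refine ⟨(InY.inN h h3).1, ?_⟩
  have e := h.conj_by_Y h3 (uu_y h) (uu_r h)
  rw [h4, uu_yh, uu_rl, h1, bW_comm R0, h2, add_zero, h.dd_zero, one_mul] at e
  exact mul_inv_eq_iff_eq_mul.1 e

/-- An element of `S` fixes `τ₀`. -/
theorem S_fix {c : G} (hc : SS z (uu h) c) : act (S.ψ c) τ₀ = τ₀ := by
  set s₀ := S.ψ (ylift h Y0) with hs₀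
  have hA : IsA s₀ := InY.isA h (uu_y h)
  have hd : PP (dl s₀) = Y0 := uu_yh h
  have hcomm : S.ψ c * s₀ = s₀ * S.ψ c := by
    rw [hs₀, ← uu_ψ, ← S.ψmul _ _ hc.1 (uu_z h), ← S.ψmul _ _ (uu_z h) hc.1, hc.2]
  have hu : act s₀ (inj R0) + inj R0 = τ₀ := by
    rw [hA.act_eq (inj_y0 R0)]
    have e : bV (inj R0) (dl s₀) = 1 := by
      rw [bV_comm, b_inj _ _ (dl_y0 hA.1), hd, bW_comm, bR]
    rw [e, one_smul, add_right_comm, V_add_self, zero_add]
  set v := act (S.ψ c) (inj R0) with hv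
  have e1 : act (S.ψ c) τ₀ = act s₀ v + v := by
    rw [← hu, act_add, ← act_mul, hcomm, act_mul]
  have hq : qV (act s₀ v + v) = 0 := by rw [← e1, q_act, q_τ₀]
  have hne : act s₀ v + v ≠ 0 := by
    rw [← e1]
    intro e
    exact τ₀_ne (act_inj _ (e.trans (act_zero _).symm))
  rcases zmod2_cases (v y0) with h0 | h1
  · rcases hA.2 v h0 with e2 | e2
    · exact (hne e2).elim
    · rw [e1, e2]
  · exfalso
    have e3 := hA.moved h1
    have e4 : (act s₀ v + v) y0 = 0 := by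
      rw [← b_τ₀ (act s₀ v + v), bV_add_left]
      nth_rewrite 1 [← hA.1]
      rw [b_act, zmod2_add_self]
    have e5 := per_q _ e4
    rw [hq, e3, hd, qY0] at e5
    revert e5
    decide

theorem S_t {c : G} (hc : SS z (uu h) c) : c * t * c⁻¹ = t ∨ c * t * c⁻¹ = z * t := by
  have h1 : S.π (c * t * c⁻¹) = S.π t := by
    rw [S.πψ c hc.1 t h.tQ, h.πt, h.S_fix hc]
  exact eq_of_π S (S.Qn c hc.1 t h.tQ) h.tQ h1

/-- The elements of `S` commuting with `t` are in `Y Q₀`. -/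
theorem S0_form {c : G} (hc : SS z (uu h) c) (hct : c * t = t * c) : ∃ y r, InY S g t y ∧ InQ0 S t r ∧ c = y * r := by
  have hN : InN z t c := ⟨hc.1, hct⟩
  have e0 : c * uu h * c⁻¹ = uu h := mul_inv_eq_iff_eq_mul.2 hc.2
  have e1 : (c * ylift h Y0 * c⁻¹) * (c * lift h R0 * c⁻¹) = ylift h Y0 * lift h R0 := by
    show _ = uu h
    rw [← e0]
    show _ = c * (ylift h Y0 * lift h R0) * c⁻¹
    group
  obtain ⟨e2, e3⟩ := h.labels_unique (InY.conj h hN (uu_y h)) (uu_y h) (InQ0.conj h hN (uu_r h)) (uu_r h) e1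
  rw [h.hat_conj hN (uu_y h), uu_yh] at e2
  rw [InQ0.conj_lb h hN (uu_r h), uu_rl] at e3
  have hAc := h.Ac_of_fix hN e2 e3
  obtain ⟨y, hy, hys⟩ := h.exists_y_of_isA (isA_of_Ac (InN.fix h hN) hAc)
  have hyN := InY.inN h hy
  have hr : y⁻¹ * c ∈ S.Q := by
    apply (S.ψker _ (comm_mul (comm_inv hyN.1) hc.1)).1
    rw [S.ψmul _ _ (comm_inv hyN.1) hc.1, ψ_inv S hyN.1, hys, inv_mul_cancel]
  exact ⟨y, y⁻¹ * c, hy, ⟨hr, comm_mul (comm_inv hyN.2) hct⟩, by group⟩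

/-- `t` is in the second centre. -/
theorem BB_t : BB z (uu h) t := by
  refine ⟨h.SS_t, fun c hc => ?_⟩
  rw [h.t_inv]
  have e : t * c * t * c⁻¹ = t * (c * t * c⁻¹) := by group
  rw [e]
  rcases h.S_t hc with e1 | e1 <;> rw [e1]
  · rw [h.tt]
    exact h.ZS_one
  · have e2 : t * (z * t) = z := by
      rw [← mul_assoc, h.tz, mul_assoc, h.tt, mul_one]
    rw [e2]
    exact h.ZS_z

/-- Some element of `S` moves `t`. -/
theorem exists_s : ∃ s, SS z (uu h) s ∧ s * t * s⁻¹ = z * t := by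
  obtain ⟨x₁, hx₁, hv⟩ := S.πsurj v₁
  obtain ⟨r', hr', hl, e4⟩ := h.x1_conj hx₁ hv (uu_y h) (uu_r h)
  have h2 : (ylift h Y0 * r') * (ylift h Y0 * r') = 1 := by
    rw [← e4]
    calc x₁ * (ylift h Y0 * lift h R0) * x₁⁻¹ * (x₁ * (ylift h Y0 * lift h R0) * x₁⁻¹)
        = x₁ * (uu h * uu h) * x₁⁻¹ := by
          show _ = x₁ * ((ylift h Y0 * lift h R0) * (ylift h Y0 * lift h R0)) * x₁⁻¹
          group
      _ = 1 := by rw [uu_sq]; group
  obtain ⟨c, hc, e5⟩ := h.type_D (uu_y h) hr' (by rw [uu_yh, qY0]) h2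
  have hx₁z := S.Qc x₁ hx₁
  refine ⟨c * x₁, ⟨comm_mul hc.1 hx₁z, ?_⟩, ?_⟩
  · have e6 : (c * x₁) * uu h * (c * x₁)⁻¹ = uu h := by
      have e7 : (c * x₁) * uu h * (c * x₁)⁻¹ = c * (x₁ * (ylift h Y0 * lift h R0) * x₁⁻¹) * c⁻¹ := by
        show (c * x₁) * (ylift h Y0 * lift h R0) * (c * x₁)⁻¹ = _
        group
      rw [e7, e4, e5]
    exact mul_inv_eq_iff_eq_mul.1 e6
  · have e8 : x₁ * t * x₁⁻¹ = z * t := by
      rw [conj_Q S hx₁ h.tQ, hv, h.πt, bV_comm, b_τ₀_v₁, pw_one]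
    have e9 : (c * x₁) * t * (c * x₁)⁻¹ = c * (x₁ * t * x₁⁻¹) * c⁻¹ := by group
    rw [e9, e8]
    have e10 : c * (z * t) * c⁻¹ = (c * z * c⁻¹) * (c * t * c⁻¹) := by group
    rw [e10, mul_inv_eq_iff_eq_mul.2 hc.1, mul_inv_eq_iff_eq_mul.2 hc.2]

/-- Central elements of `S` in `⟨t,z⟩` are in `⟨z⟩`. -/
theorem ZS_dd {α β : ZMod 2} (hz : ZS z (uu h) (dd t z α β)) : α = 0 := by
  obtain ⟨s, hs, hst⟩ := h.exists_s
  rcases zmod2_cases α with e | e
  · exact e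
  · exfalso
    subst e
    have h1 := hz.2 s hs
    have h2 : s * dd t z 1 β * s⁻¹ = dd t z 1 β := by
      rw [← h1]; group
    have h3 : s * dd t z 1 β * s⁻¹ = (s * t * s⁻¹) * (s * pw z β * s⁻¹) := by
      show s * (pw t 1 * pw z β) * s⁻¹ = _
      rw [pw_one]
      group
    have h4 : s * pw z β * s⁻¹ = pw z β := by
      rcases pw_cases z β with e | e <;> rw [e]
      · group
      · exact mul_inv_eq_iff_eq_mul.2 hs.1
    rw [h3, hst, h4] at h2
    have h5 : dd t z 1 β = t * pw z β := by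
      show pw t 1 * pw z β = _
      rw [pw_one]
    rw [h5, mul_assoc] at h2
    exact S.z1 (mul_right_cancel (h2.trans (one_mul _).symm))

/-- `m̃₁, m̃₂` are in the centraliser of the second centre. -/
theorem KK_lift {v : W} (hv : v = m₁ ∨ v = m₂) : KK z (uu h) (lift h v) := by
  have h1 : bW v Y0 = 0 := by rcases hv with rfl | rfl <;> decide +kernel
  have h2 : bW v R0 = 0 := by rcases hv with rfl | rfl <;> decide +kernel
  have hS := h.SS_lift h1 h2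
  refine ⟨hS, fun b hb => ?_⟩
  obtain ⟨hl1, hl2⟩ := lift_spec h v
  by_cases hbt : b * t = t * b
  · obtain ⟨y, r, hy, hr, rfl⟩ := h.S0_form hb.1 hbt
    have e1 := h.conj_by_Q0 hl1 hy hr
    rw [hl2] at e1
    set b₁ := bW v (hat S y) with hb₁
    set b₂ := bW v (lb S r) with hb₂
    have e2 : (y * r) * lift h v * (y * r)⁻¹ * (lift h v)⁻¹ = dd t z b₁ (b₁ + b₂) := by
      have e3 : (y * r) * lift h v * (y * r)⁻¹ * (lift h v)⁻¹ = (lift h v * (y * r) * (lift h v)⁻¹ * (y * r)⁻¹)⁻¹ := by group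
      rw [e3, e1, mul_inv_cancel_right, h.dd_inv]
    have e4 := hb.2 _ hS
    rw [e2] at e4
    have h0 : b₁ = 0 := h.ZS_dd e4
    -- `Y`
    have hSy := h.SS_ylift h1 h2
    obtain ⟨hy1, hy2⟩ := ylift_spec h v
    have e5 := h.conj_by_Y hy1 hy hr
    rw [hy2, ← hb₁] at e5
    have e6 : (y * r) * ylift h v * (y * r)⁻¹ * (ylift h v)⁻¹ = dd t z (b₁ + bW (lb S r) v) (bW (lb S r) v) := by
      have e3 : (y * r) * ylift h v * (y * r)⁻¹ * (ylift h v)⁻¹ = (ylift h v * (y * r) * (ylift h v)⁻¹ * (y * r)⁻¹)⁻¹ := by group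
      rw [e3, e5, mul_inv_cancel_right, h.dd_inv]
    have e7 := hb.2 _ hSy
    rw [e6] at e7
    have h3 := h.ZS_dd e7
    rw [h0, zero_add, bW_comm, ← hb₂] at h3
    rw [h0, h3, add_zero, h.dd_zero, one_mul] at e1
    exact mul_inv_eq_iff_eq_mul.1 e1
  · exfalso
    have hbt2 : b * t * b⁻¹ = z * t := by
      rcases h.S_t hb.1 with e | e
      · exact (hbt (mul_inv_eq_iff_eq_mul.1 e)).elim
      · exact e
    obtain ⟨x₁, hx₁, hv₁⟩ := S.πsurj v₁
    have e8 : x₁ * t * x₁⁻¹ = z * t := by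
      rw [conj_Q S hx₁ h.tQ, hv₁, h.πt, bV_comm, b_τ₀_v₁, pw_one]
    have hx₁z := S.Qc x₁ hx₁
    set c := b * x₁⁻¹ with hc
    have hcz : c * z = z * c := comm_mul hb.1.1 (comm_inv hx₁z)
    have hct : c * t = t * c := by
      have e9 : x₁⁻¹ * t * x₁ = z * t := by
        have e10 : t = x₁⁻¹ * (x₁ * t * x₁⁻¹) * x₁ := by group
        have e11 : x₁⁻¹ * (z * t) * x₁ = (x₁⁻¹ * z * x₁) * (x₁⁻¹ * t * x₁) := by group
        have e12 : x₁⁻¹ * z * x₁ = z := by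
          have := comm_inv hx₁z
          rw [this]; group
        rw [e8, e11, e12] at e10
        calc x₁⁻¹ * t * x₁ = z * (z * (x₁⁻¹ * t * x₁)) := by rw [← mul_assoc, S.zz, one_mul]
          _ = z * t := by rw [← e10]
      have e13 : c * t * c⁻¹ = t := by
        have e14 : c * t * c⁻¹ = b * (x₁⁻¹ * t * x₁) * b⁻¹ := by rw [hc]; group
        rw [e14, e9]
        have e15 : b * (z * t) * b⁻¹ = (b * z * b⁻¹) * (b * t * b⁻¹) := by group
        rw [e15, hbt2, mul_inv_eq_iff_eq_mul.2 hb.1.1, ← mul_assoc, S.zz, one_mul]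
      exact mul_inv_eq_iff_eq_mul.1 e13
    have hN : InN z t c := ⟨hcz, hct⟩
    have hf := InN.fix h hN
    obtain ⟨r', hr', hl, e4⟩ := h.x1_conj hx₁ hv₁ (uu_y h) (uu_r h)
    have e16 : (c * ylift h Y0 * c⁻¹) * (c * r' * c⁻¹) = ylift h Y0 * lift h R0 := by
      have e17 : b * uu h * b⁻¹ = uu h := mul_inv_eq_iff_eq_mul.2 hb.1.2
      have e18 : c * (ylift h Y0 * r') * c⁻¹ = ylift h Y0 * lift h R0 := by
        rw [← e4]
        show _ = uu h
        rw [← e17]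
        show _ = b * (ylift h Y0 * lift h R0) * b⁻¹
        rw [hc]; group
      rw [← e18]; group
    obtain ⟨e19, e20⟩ := h.labels_unique (InY.conj h hN (uu_y h)) (uu_y h) (InQ0.conj h hN hr') (uu_r h) e16
    rw [h.hat_conj hN (uu_y h), uu_yh] at e19
    rw [InQ0.conj_lb h hN hr', hl, uu_rl, uu_yh] at e20
    have hR : Ac (S.ψ c) R0 = R0 + Y0 := by
      have e26 := e20
      rw [Ac_add, e19] at e26
      calc Ac (S.ψ c) R0 = Ac (S.ψ c) R0 + Y0 + Y0 := by rw [add_assoc, W_add_self, add_zero]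
        _ = R0 + Y0 := by rw [e26]
    have b1 : bW (Ac (S.ψ c) m₁) Y0 = 0 := by
      nth_rewrite 1 [← e19]
      rw [Ac_b hf]; decide +kernel
    have b2 : bW (Ac (S.ψ c) m₂) Y0 = 0 := by
      nth_rewrite 1 [← e19]
      rw [Ac_b hf]; decide +kernel
    have b3 : bW (Ac (S.ψ c) m₁) R0 = 0 := by
      nth_rewrite 1 [← e20]
      rw [Ac_b hf]; decide +kernel
    have b4 : bW (Ac (S.ψ c) m₂) R0 = 0 := by
      nth_rewrite 1 [← e20]
      rw [Ac_b hf]; decide +kernel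
    rcases h.M_image hN b1 b2 b3 b4 with ⟨e5, e6⟩ | ⟨e5, e6⟩
    · refine h.rf_contra hN qY0 ?_
      refine W_induct (T := fun v => Ac (S.ψ c) v = rW Y0 v) ?_ (fun u v hu hv => ?_) ?_ ?_ ?_ ?_
      · rw [Ac_zero]; decide +kernel
      · rw [Ac_add, rW_add, hu, hv]
      · rw [e5]; decide +kernel
      · rw [e6]; decide +kernel
      · rw [e19]; decide +kernel
      · rw [hR]; decide +kernel
    · -- `m̃₁` is moved
      obtain ⟨hm1, hm2⟩ := lift_spec h m₁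
      have hm3 : bW m₁ Y0 = 0 := by decide +kernel
      have hm4 : bW m₁ R0 = 0 := by decide +kernel
      have hSm := h.SS_lift hm3 hm4
      have e21 := hb.2 _ hSm
      set m := lift h m₁ with hm
      have hx₂ : x₁ * m * x₁⁻¹ = pw z (bV v₁ (S.π m)) * m := by
        rw [conj_Q S hx₁ hm1.1, hv₁]
      have hd0 : InQ0 S t (pw z (bV v₁ (S.π m))) := by
        rw [← h.dd_right]; exact h.dd_InQ0 _ _
      have hl0 : lb S (pw z (bV v₁ (S.π m))) = 0 := by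
        rw [← h.dd_right]; exact h.lb_dd _ _
      have e22 : b * m * b⁻¹ = c * (pw z (bV v₁ (S.π m)) * m) * c⁻¹ := by
        rw [← hx₂, hc]; group
      have hw1 : InQ0 S t (c * (pw z (bV v₁ (S.π m)) * m) * c⁻¹) := InQ0.conj h hN (InQ0.mul hd0 hm1)
      have hw2 : lb S (c * (pw z (bV v₁ (S.π m)) * m) * c⁻¹) = m₂ := by
        rw [InQ0.conj_lb h hN (InQ0.mul hd0 hm1), InQ0.lb_mul h hd0 hm1, hl0, zero_add, hm2, e5]
      rw [e22] at e21
      have hw3 := InQ0.mul hw1 (InQ0.inv hm1)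
      have hw4 : lb S (c * (pw z (bV v₁ (S.π m)) * m) * c⁻¹ * m⁻¹) = m₂ + m₁ := by
        rw [InQ0.lb_mul h hw1 (InQ0.inv hm1), hw2, InQ0.lb_inv h hm1, hm2]
      have e23 := e21.2 m hSm
      have e24 := InQ0.comm h hw3 hm1
      rw [hw4, hm2] at e24
      have e25 : bW (m₂ + m₁) m₁ = 1 := by decide +kernel
      rw [e25, pw_one] at e24
      rw [e23] at e24
      apply S.z1
      rw [← e24]
      group

/-- The commutator of two elements of `Y Q₀`. -/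
theorem R_comm {y y' r r' : G} (hy : InY S g t y) (hy' : InY S g t y') (hr : InQ0 S t r) (hr' : InQ0 S t r') :
    ∃ α β, (y' * r') * (y * r) * (y' * r')⁻¹ * (y * r)⁻¹ = dd t z α β := by
  have e1 := h.conj_by_Q0 hr' hy hr
  have e2 := h.conj_by_Y hy' hy hr
  set d₁ := dd t z (bW (lb S r') (hat S y)) (bW (lb S r') (hat S y) + bW (lb S r') (lb S r)) with hd₁
  set d₂ := dd t z (bW (hat S y') (hat S y) + bW (lb S r) (hat S y')) (bW (lb S r) (hat S y')) with hd₂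
  have e3 : y' * d₁ * y'⁻¹ = d₁ := by
    rw [hd₁, InN.cdd (InY.inN h hy')]; group
  have e4 : (y' * r') * (y * r) * (y' * r')⁻¹ * (y * r)⁻¹ = d₁ * d₂ := by
    calc (y' * r') * (y * r) * (y' * r')⁻¹ * (y * r)⁻¹ = y' * (r' * (y * r) * r'⁻¹) * y'⁻¹ * (y * r)⁻¹ := by group
      _ = (y' * d₁ * y'⁻¹) * (y' * (y * r) * y'⁻¹) * (y * r)⁻¹ := by rw [e1]; group
      _ = d₁ * (d₂ * (y * r)) * (y * r)⁻¹ := by rw [e3, e2]
      _ = _ := by group
  rw [hd₁, hd₂, h.dd_mul] at e4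
  exact ⟨_, _, e4⟩

/-- `z` is characteristic in `S`, under the elements normalising `S`. -/
theorem z_char {n : G} (hn : ∀ c, SS z (uu h) c ↔ SS z (uu h) (n * c * n⁻¹)) : n * z * n⁻¹ = z := by
  have h1 := KK_conj hn (h.KK_lift (v := m₁) (Or.inl rfl))
  have h2 := KK_conj hn (h.KK_lift (v := m₂) (Or.inr rfl))
  obtain ⟨y', r', hy', hr', e1⟩ := h.S0_form h1.1 (h1.2 _ h.BB_t)
  obtain ⟨y, r, hy, hr, e2⟩ := h.S0_form h2.1 (h2.2 _ h.BB_t)
  obtain ⟨α, β, e3⟩ := h.R_comm hy hy' hr hr'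
  obtain ⟨l1, l2⟩ := lift_spec h m₁
  obtain ⟨l3, l4⟩ := lift_spec h m₂
  have e4 := InQ0.comm h l1 l3
  rw [l2, l4, bm, pw_one] at e4
  rw [← e1, ← e2] at e3
  have e5 : (n * lift h m₁ * n⁻¹) * (n * lift h m₂ * n⁻¹) * (n * lift h m₁ * n⁻¹)⁻¹ * (n * lift h m₂ * n⁻¹)⁻¹ =
      n * (lift h m₁ * lift h m₂ * (lift h m₁)⁻¹ * (lift h m₂)⁻¹) * n⁻¹ := by group
  rw [e5, e4] at e3
  have h3 := ZS_conj hn h.ZS_z
  rw [e3] at h3
  have h4 := h.ZS_dd h3
  subst h4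
  rw [h.dd_right] at e3
  rcases pw_cases z β with e | e <;> rw [e] at e3
  · exfalso
    apply S.z1
    have e6 : z = n⁻¹ * (n * z * n⁻¹) * n := by group
    rw [e6, e3]; group
  · exact e3

/-- `S` has exponent dividing 8. -/
theorem S_exp {c : G} (hz : c * z = z * c) (hu : c * uu h = uu h * c) : c ^ 8 = 1 := by
  have hc : SS z (uu h) c := ⟨hz, hu⟩
  have key : ∀ d : G, SS z (uu h) d → d * t = t * d → (d * d) * (d * d) = 1 := by
    intro d hd hdt
    obtain ⟨y, r, hy, hr, rfl⟩ := h.S0_form hd hdt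
    rw [h.sq_yx hr hy, h.dd_self]
  have e8 : c ^ 8 = ((c * c) * (c * c)) * ((c * c) * (c * c)) := by
    rw [show (8 : ℕ) = 2 + 2 + (2 + 2) from rfl, pow_add, pow_add, pow_two]
  rw [e8]
  by_cases hct : c * t = t * c
  · rw [key c hc hct, one_mul]
  · have h1 : c * t * c⁻¹ = z * t := by
      rcases h.S_t hc with e | e
      · exact (hct (mul_inv_eq_iff_eq_mul.1 e)).elim
      · exact e
    have hc2 : SS z (uu h) (c * c) := ⟨comm_mul hz hz, by rw [mul_assoc, hu, ← mul_assoc, hu, mul_assoc]⟩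
    have hct2 : (c * c) * t = t * (c * c) := by
      have e2 : (c * c) * t * (c * c)⁻¹ = t := by
        have e3 : (c * c) * t * (c * c)⁻¹ = c * (c * t * c⁻¹) * c⁻¹ := by group
        have e4 : c * (z * t) * c⁻¹ = (c * z * c⁻¹) * (c * t * c⁻¹) := by group
        rw [e3, h1, e4, h1, mul_inv_eq_iff_eq_mul.2 hz, ← mul_assoc, S.zz, one_mul]
      exact mul_inv_eq_iff_eq_mul.1 e2
    exact key _ hc2 hct2

end NF

end Cfsg.Agent.Lib.SuzInv.Core
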