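import Cfsg.Prelude.Def_Classical
import Cfsg.Prelude.Def_Local
import Cfsg.Prelude.Def_Transfer
import Cfsg.Agent.Lib.Orth.Forms
import Cfsg.Agent.Lib.OrthRefl.Basic
import Mathlib

/-!
# Setting for the involutions of a group of Suzuki sporadic type
-/

set_option autoImplicit false

namespace Cfsg.Agent.Lib.SuzInv.Defs

open Cfsg Matrix

/-- The index type of the elliptic form in dimension 6. -/
abbrev Idx := (Fin 2 ⊕ Fin 2) ⊕ Fin 2
/-- The natural module. -/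
abbrev V := Idx → ZMod 2
/-- The elliptic form. -/
abbrev qV : V → ZMod 2 := Cfsg.quadFormMinus 2 (ZMod 2) 1 1
/-- The polar form. -/
def bV (u v : V) : ZMod 2 := qV (u + v) + qV u + qV v
/-- The isometry group. -/
abbrev OO := ↥(Cfsg.isometryGroup (ZMod 2) qV)
/-- The action of an isometry on vectors. -/
def act (g : OO) (v : V) : V := ((g : GL Idx (ZMod 2)) : Matrix Idx Idx (ZMod 2)) *ᵥ v

/-- `a ^ c` for `c` in `ZMod 2`. -/
def pw {G : Type*} [Group G] (a : G) (c : ZMod 2) : G := by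
  classical exact if c = 0 then 1 else a

/-- What is extracted from the hypotheses of Suzuki sporadic type at the involution `z`: `Q` is extraspecial with `Q/⟨z⟩ = V`
as quadratic spaces, and `C(z)/Q` acts as `Ω(V)` on `V`. The maps are total, and only meaningful on `Q` and `C(z)`. -/
structure Setup {G : Type*} [Group G] (z : G) where
  Q : Subgroup G
  π : G → V
  ψ : G → OO
  zz : z * z = 1
  z1 : z ≠ 1
  zQ : z ∈ Q
  Qc : ∀ x ∈ Q, x * z = z * x
  πmul : ∀ x ∈ Q, ∀ y ∈ Q, π (x * y) = π x + π y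
  πsurj : ∀ v, ∃ x ∈ Q, π x = v
  πker : ∀ x ∈ Q, π x = 0 ↔ (x = 1 ∨ x = z)
  sq : ∀ x ∈ Q, x * x = pw z (qV (π x))
  ψmul : ∀ c d, c * z = z * c → d * z = z * d → ψ (c * d) = ψ c * ψ d
  ψmem : ∀ c, c * z = z * c → ψ c ∈ commutator OO
  ψsurj : ∀ w ∈ commutator OO, ∃ c, c * z = z * c ∧ ψ c = w
  ψker : ∀ c, c * z = z * c → (ψ c = 1 ↔ c ∈ Q)
  Qn : ∀ c, c * z = z * c → ∀ x ∈ Q, c * x * c⁻¹ ∈ Q
  πψ : ∀ c, c * z = z * c → ∀ x ∈ Q, π (c * x * c⁻¹) = act (ψ c) (π x)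
  cent : ∀ x, (∀ y ∈ Q, x * y = y * x) → x ∈ Q

end Cfsg.Agent.Lib.SuzInv.Defs
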