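import Cfsg.Agent.Lib.SuzInv.IntoC
import Cfsg.Agent.Lib.SmallSimple.SylowBasic

/-!
# Suzuki type: the final normaliser growth argument
-/

set_option autoImplicit false

namespace Cfsg.Agent.Lib.SuzInv.Final

open Cfsg Cfsg.Agent.Lib.SuzInv.Defs Cfsg.Agent.Lib.SuzInv.Core

/-- If `C(z) ∩ C(u)` has exponent dividing 8 and `z` is fixed by the elements of `C(u)` normalising it, then `u` is not conjugate to `z`. -/
theorem not_conj {G : Type*} [Group G] [Finite G] {z : G} (S : Setup z) (u : G) (huz : u ≠ z) (huu : u * z = z * u)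
    (h2 : ∀ c, c * z = z * c → c * u = u * c → c ^ 8 = 1)
    (hchar : ∀ n, n * u = u * n → (∀ c, (c * z = z * c ∧ c * u = u * c) ↔
      ((n * c * n⁻¹) * z = z * (n * c * n⁻¹) ∧ (n * c * n⁻¹) * u = u * (n * c * n⁻¹))) → n * z * n⁻¹ = z) :
    ¬ ∃ h, h * z * h⁻¹ = u := by
  classical
  haveI : Fact (Nat.Prime 2) := ⟨Nat.prime_two⟩
  rintro ⟨h, hh⟩
  have cmul : ∀ {a x y : G}, x * a = a * x → y * a = a * y → (x * y) * a = a * (x * y) := by
    intro a x y hx hy
    rw [mul_assoc, hy, ← mul_assoc, hx, mul_assoc]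
  have cinv : ∀ {a x : G}, x * a = a * x → x⁻¹ * a = a * x⁻¹ := by
    intro a x hx
    rw [eq_mul_inv_iff_mul_eq, mul_assoc, ← hx, inv_mul_cancel_left]
  let Sg : Subgroup G :=
    { carrier := {c | c * z = z * c ∧ c * u = u * c}
      mul_mem' := fun ha hb => ⟨cmul ha.1 hb.1, cmul ha.2 hb.2⟩
      one_mem' := ⟨by simp, by simp⟩
      inv_mem' := fun ha => ⟨cinv ha.1, cinv ha.2⟩ }
  have hSg : ∀ c, c ∈ Sg ↔ (c * z = z * c ∧ c * u = u * c) := fun c => Iff.rfl
  have hSgp : IsPGroup 2 Sg := by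
    intro c
    refine ⟨3, Subtype.ext ?_⟩
    have := h2 c c.2.1 c.2.2
    simpa using this
  let Cu : Subgroup G :=
    { carrier := {c | c * u = u * c}
      mul_mem' := fun ha hb => cmul ha hb
      one_mem' := by simp
      inv_mem' := fun ha => cinv ha }
  let Q' : Subgroup G := S.Q.map (MulAut.conj h).toMonoidHom
  have hmemQ' : ∀ x, x ∈ Q' ↔ h⁻¹ * x * h ∈ S.Q := by
    intro x
    constructor
    · rintro ⟨y, hy, rfl⟩
      have e : h⁻¹ * ((MulAut.conj h).toMonoidHom y) * h = y := by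
        simp [MulAut.conj_apply]
        group
      rw [e]
      exact hy
    · intro hx
      refine ⟨h⁻¹ * x * h, hx, ?_⟩
      simp [MulAut.conj_apply]
      group
  have hQ'p : IsPGroup 2 Q' := (IntoC.Q_isPGroup S).map _
  have hconjz : ∀ c, c * u = u * c → (h⁻¹ * c * h) * z = z * (h⁻¹ * c * h) := by
    intro c hc
    have e : u = h * z * h⁻¹ := hh.symm
    rw [e] at hc
    calc (h⁻¹ * c * h) * z = h⁻¹ * (c * (h * z * h⁻¹)) * h := by group
      _ = h⁻¹ * ((h * z * h⁻¹) * c) * h := by rw [hc]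
      _ = _ := by group
  have hnorm : Sg ≤ Subgroup.normalizer (Q' : Set G) := by
    intro c hc
    rw [Subgroup.mem_set_normalizer_iff]
    intro x
    have hcu := hconjz c hc.2
    show x ∈ Q' ↔ c * x * c⁻¹ ∈ Q'
    rw [hmemQ', hmemQ']
    constructor
    · intro hx
      have e : h⁻¹ * (c * x * c⁻¹) * h = (h⁻¹ * c * h) * (h⁻¹ * x * h) * (h⁻¹ * c * h)⁻¹ := by group
      rw [e]
      exact S.Qn _ hcu _ hx
    · intro hx
      have e : h⁻¹ * x * h = (h⁻¹ * c * h)⁻¹ * (h⁻¹ * (c * x * c⁻¹) * h) * ((h⁻¹ * c * h)⁻¹)⁻¹ := by group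
      rw [e]
      exact S.Qn _ (cinv hcu) _ hx
  have hX : IsPGroup 2 ↥(Sg ⊔ Q') := hSgp.to_sup_of_normal_right' hQ'p hnorm
  have hQ'u : Q' ≤ Cu := by
    intro x hx
    have hx1 := (hmemQ' x).1 hx
    have e := S.Qc _ hx1
    show x * u = u * x
    rw [← hh]
    calc x * (h * z * h⁻¹) = h * ((h⁻¹ * x * h) * z) * h⁻¹ := by group
      _ = h * (z * (h⁻¹ * x * h)) * h⁻¹ := by rw [e]
      _ = _ := by group
  have hSu : Sg ≤ Cu := fun c hc => hc.2
  by_cases hle : Q' ≤ Sg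
  · set z₁ := h⁻¹ * z * h with hz₁
    have hcomm : ∀ y ∈ S.Q, z₁ * y = y * z₁ := by
      intro y hy
      have hyQ' : h * y * h⁻¹ ∈ Q' := by
        rw [hmemQ']
        have e : h⁻¹ * (h * y * h⁻¹) * h = y := by group
        rwa [e]
      have e1 := (hle hyQ').1
      calc z₁ * y = h⁻¹ * (z * (h * y * h⁻¹)) * h := by rw [hz₁]; group
        _ = h⁻¹ * ((h * y * h⁻¹) * z) * h := by rw [e1]
        _ = y * z₁ := by rw [hz₁]; group
    have hz₁Q : z₁ ∈ S.Q := S.cent _ hcomm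
    have hne : z₁ ≠ 1 := by
      intro e
      apply S.z1
      have e2 : z = h * z₁ * h⁻¹ := by rw [hz₁]; group
      rw [e2, e]; group
    have e := IntoC.eq_z_of_central S hz₁Q hne hcomm
    apply huz
    rw [← hh]
    calc h * z * h⁻¹ = h * z₁ * h⁻¹ := by rw [e]
      _ = z := by rw [hz₁]; group
  · have hlt : Sg < Sg ⊔ Q' := by
      refine lt_of_le_of_ne le_sup_left (fun e => hle ?_)
      rw [e]
      exact le_sup_right
    obtain ⟨n, hnX, hnS, hnN⟩ := Cfsg.Agent.Lib.SmallSimple.SylowBasic.exists_mem_normalizer_not_mem hX hlt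
    have hnu : n * u = u * n := (sup_le hSu hQ'u) hnX
    rw [Subgroup.mem_set_normalizer_iff] at hnN
    have e := hchar n hnu (fun c => hnN c)
    apply hnS
    exact ⟨mul_inv_eq_iff_eq_mul.1 e, hnu⟩

end Cfsg.Agent.Lib.SuzInv.Final
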