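import Cfsg.Agent.Lib.SuzInv.Core1

/-!
# Suzuki type: every involution is conjugate into the centraliser of `z`
-/

set_option autoImplicit false

namespace Cfsg.Agent.Lib.SuzInv.IntoC

open Cfsg Matrix Cfsg.Agent.Lib.SuzInv.Defs Cfsg.Agent.Lib.SuzInv.Basic Cfsg.Agent.Lib.SuzInv.Core

variable {G : Type*} [Group G]

/-- The only nontrivial element of `Q` central in `Q` is `z`. -/
theorem eq_z_of_central {z : G} (S : Setup z) {x : G} (hx : x ∈ S.Q) (h1 : x ≠ 1)
    (hc : ∀ y ∈ S.Q, x * y = y * x) : x = z := by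
  have key : ∀ v : V, v ≠ 0 → ∃ u : V, bV u v = 1 := by decide +kernel
  by_cases h0 : S.π x = 0
  · rcases (S.πker x hx).1 h0 with h | h
    · exact (h1 h).elim
    · exact h
  · obtain ⟨u, hu⟩ := key _ h0
    obtain ⟨q, hq, hqu⟩ := S.πsurj u
    have := (Q_comm_iff S hq hx).1 (hc q hq).symm
    rw [hqu, hu] at this
    exact absurd this (by decide)

theorem Q_isPGroup {z : G} (S : Setup z) : IsPGroup 2 S.Q := by
  intro x
  refine ⟨2, ?_⟩
  apply Subtype.ext
  have := Q_pow4 S x.2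
  simpa using this

/-- Every involution is conjugate into `C(z)`. -/
theorem exists_conj_comm {G : Type*} [Group G] [Finite G] {z : G} (S : Setup z) (a : G)
    (ha : a * a = 1) : ∃ h : G, (h * a * h⁻¹) * z = z * (h * a * h⁻¹) := by
  classical
  haveI : Fact (Nat.Prime 2) := ⟨Nat.prime_two⟩
  obtain ⟨P, hQP⟩ := (Q_isPGroup S).exists_le_sylow
  have hPp : IsPGroup 2 (P : Subgroup G) := P.isPGroup'
  have hzP : z ∈ (P : Subgroup G) := hQP S.zQ
  haveI hNt : Nontrivial (P : Subgroup G) :=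
    ⟨⟨⟨z, hzP⟩, 1, fun h => S.z1 (congrArg Subtype.val h)⟩⟩
  haveI := hPp.center_nontrivial
  obtain ⟨⟨x, hxc⟩, hx1⟩ := exists_ne (1 : Subgroup.center (P : Subgroup G))
  have hx1' : (x : G) ≠ 1 := by
    intro h
    apply hx1
    apply Subtype.ext
    apply Subtype.ext
    simpa using h
  have hxcomm : ∀ y ∈ (P : Subgroup G), (x : G) * y = y * x := by
    intro y hy
    have := (Subgroup.mem_center_iff.1 hxc) ⟨y, hy⟩
    exact (congrArg Subtype.val this).symm
  have hxQ : (x : G) ∈ S.Q := S.cent _ (fun y hy => hxcomm y (hQP hy))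
  have hxz : (x : G) = z := eq_z_of_central S hxQ hx1' (fun y hy => hxcomm y (hQP hy))
  have hzc : ∀ y ∈ (P : Subgroup G), y * z = z * y := by
    intro y hy
    rw [← hxz]
    exact (hxcomm y hy).symm
  -- `⟨a⟩` is a 2-group.
  have haP : IsPGroup 2 (Subgroup.zpowers a) := by
    intro y
    refine ⟨1, ?_⟩
    obtain ⟨y, k, rfl⟩ := y
    apply Subtype.ext
    have hinv : a⁻¹ = a := inv_eq_of_mul_eq_one_left ha
    have h2 : (a ^ k) ^ 2 = 1 := by
      rw [← zpow_natCast, ← _root_.zpow_mul, mul_comm, _root_.zpow_mul]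
      simp [pow_two, ha]
    simpa using h2
  obtain ⟨P', hP'⟩ := haP.exists_le_sylow
  obtain ⟨g, hg⟩ := MulAction.exists_smul_eq G P' P
  have hmem : a ∈ (P' : Subgroup G) := hP' (Subgroup.mem_zpowers a)
  refine ⟨g, ?_⟩
  have : g * a * g⁻¹ ∈ (P : Subgroup G) := by
    rw [← hg, Sylow.coe_subgroup_smul]
    exact Subgroup.mem_smul_pointwise_iff_exists _ _ _ |>.2 ⟨a, hmem, rfl⟩
  exact hzc _ this

end Cfsg.Agent.Lib.SuzInv.IntoC
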