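import Cfsg.Agent.Lib.SuzInv.Core2

/-!
# Suzuki type: reaching the normal form `(g, t)`
-/

set_option autoImplicit false
set_option linter.unusedSectionVars false
set_option linter.unusedVariables false
set_option maxRecDepth 100000

namespace Cfsg.Agent.Lib.SuzInv.NormalForm

open Cfsg Matrix Cfsg.Agent.Lib.SuzInv.Defs Cfsg.Agent.Lib.SuzInv.Basic Cfsg.Agent.Lib.SuzInv.Refl
  Cfsg.Agent.Lib.SuzInv.OmFacts Cfsg.Agent.Lib.SuzInv.WF Cfsg.Agent.Lib.SuzInv.Core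

/-! ### An element of order five fixing `τ₀` -/

/-- Non-singular vectors of `W` whose reflections multiply to an element of order five. -/
def a₁ : W := (0, 0, 0, 1)
def a₂ : W := (0, 0, 1, 0)
def a₃ : W := (0, 1, 0, 1)
def a₄ : W := (1, 0, 0, 1)

theorem qa₁ : qW a₁ = 1 := by decide +kernel
theorem qa₂ : qW a₂ = 1 := by decide +kernel
theorem qa₃ : qW a₃ = 1 := by decide +kernel
theorem qa₄ : qW a₄ = 1 := by decide +kernel

/-- The element of order five. -/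
noncomputable def ω₀ : OO := (rf (inj a₁) * rf (inj a₂)) * (rf (inj a₃) * rf (inj a₄))

/-- The reflection, on vectors. -/
def rv (a x : V) : V := x + bV x a • a

/-- The element of order five, on vectors. -/
def fv (x : V) : V := rv (inj a₁) (rv (inj a₂) (rv (inj a₃) (rv (inj a₄) x)))

theorem q_inj_one {a : W} (ha : qW a = 1) : qV (inj a) = 1 := by rw [q_inj, ha]

theorem ω₀_act (x : V) : act ω₀ x = fv x := by
  unfold ω₀ fv rv
  rw [act_mul, act_mul, act_mul, act_rf (q_inj_one qa₄), act_rf (q_inj_one qa₃), act_rf (q_inj_one qa₂), act_rf (q_inj_one qa₁)]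

theorem ω₀_mem : ω₀ ∈ commutator OO :=
  mul_mem (rf_mul_rf_mem (q_inj_one qa₁) (q_inj_one qa₂)) (rf_mul_rf_mem (q_inj_one qa₃) (q_inj_one qa₄))

theorem ω₀_fix : act ω₀ τ₀ = τ₀ := by
  unfold ω₀
  rw [act_mul, act_mul, act_mul, rf_fix qa₄, rf_fix qa₃, rf_fix qa₂, rf_fix qa₁]

theorem fv_five : ∀ x : V, fv (fv (fv (fv (fv x)))) = x := by decide +kernel

theorem fv_move : fv (inj a₁) ≠ inj a₁ := by decide +kernel

theorem ω₀_pow : ω₀ ^ 5 = 1 := by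
  apply act_ext
  intro x
  have e : ω₀ ^ 5 = ω₀ * (ω₀ * (ω₀ * (ω₀ * ω₀))) := by
    simp only [pow_succ, pow_zero, one_mul, mul_assoc]
  rw [e, act_mul, act_mul, act_mul, act_mul, act_one, ω₀_act, ω₀_act, ω₀_act, ω₀_act, ω₀_act, fv_five]

theorem ω₀_ne : ω₀ ≠ 1 := by
  intro h
  apply fv_move
  rw [← ω₀_act, h, act_one]

/-! ### Lifts -/

variable {G : Type*} [Group G] {z : G}

/-- Isometries in `Ω` fixing `τ₀` lift to `C(z) ∩ C(t)`. -/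
theorem exists_N' (S : Setup z) {t : G} (ht : t ∈ S.Q) (hπ : S.π t = τ₀) {w : OO} (hw : w ∈ commutator OO)
    (hf : act w τ₀ = τ₀) : ∃ c, c * z = z * c ∧ c * t = t * c ∧ S.ψ c = w := by
  obtain ⟨c₀, hc₀, hcw⟩ := S.ψsurj w hw
  have h1 : S.π (c₀ * t * c₀⁻¹) = S.π t := by
    rw [S.πψ c₀ hc₀ t ht, hcw, hπ, hf]
  rcases eq_of_π S (S.Qn c₀ hc₀ t ht) ht h1 with h2 | h2
  · exact ⟨c₀, hc₀, mul_inv_eq_iff_eq_mul.1 h2, hcw⟩
  · obtain ⟨x, hx, hxv⟩ := S.πsurj v₁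
    have h3 : x * t * x⁻¹ = z * t := by
      rw [conj_Q S hx ht, hxv, hπ, bV_comm, b_τ₀_v₁, pw_one]
    refine ⟨c₀ * x, comm_mul hc₀ (S.Qc x hx), ?_, ?_⟩
    · have e : (c₀ * x) * t * (c₀ * x)⁻¹ = c₀ * (x * t * x⁻¹) * c₀⁻¹ := by group
      have e2 : c₀ * (z * t) * c₀⁻¹ = (c₀ * z * c₀⁻¹) * (c₀ * t * c₀⁻¹) := by group
      have e3 : c₀ * z * c₀⁻¹ = z := mul_inv_eq_iff_eq_mul.2 hc₀
      have e4 : (c₀ * x) * t * (c₀ * x)⁻¹ = t := by
        rw [e, h3, e2, e3, h2, ← mul_assoc, S.zz, one_mul]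
      exact mul_inv_eq_iff_eq_mul.1 e4
    · rw [S.ψmul _ _ hc₀ (S.Qc x hx), ψ_of_Q S hx, mul_one, hcw]

/-- An element of order five in `C(z) ∩ C(t)` which acts non-trivially on `V`. -/
theorem exists_five (S : Setup z) {t : G} (ht : t ∈ S.Q) (hπ : S.π t = τ₀) :
    ∃ f, f * z = z * f ∧ f * t = t * f ∧ f ^ 5 = 1 ∧ S.ψ f = ω₀ := by
  obtain ⟨c, h1, h2, h3⟩ := exists_N' S ht hπ ω₀_mem ω₀_fix
  have h5 : c ^ 5 ∈ S.Q := by
    have := (ψ_pow S h1 5)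
    rw [h3, ω₀_pow] at this
    exact (S.ψker _ this.2).1 this.1
  have h20 : c ^ 20 = 1 := by
    have := Q_pow4 S h5
    rwa [← pow_mul] at this
  refine ⟨c ^ 16, (ψ_pow S h1 16).2, ?_, ?_, ?_⟩
  · exact (Commute.pow_left (show Commute c t from h2) 16)
  · have e : (c ^ 16) ^ 5 = (c ^ 20) ^ 4 := by
      rw [← pow_mul, ← pow_mul]
    rw [e, h20, one_pow]
  · rw [(ψ_pow S h1 16).1, h3]
    have e : ω₀ ^ 16 = (ω₀ ^ 5) ^ 3 * ω₀ := by
      rw [← pow_mul, ← pow_succ]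
    rw [e, ω₀_pow, one_pow, one_mul]

/-- A square-trivial element of `Q` other than `1, z` can be moved to `τ₀` under `C(z)`. -/
theorem exists_move (S : Setup z) {x : G} (hx : x ∈ S.Q) (hxx : x * x = 1) (hx1 : x ≠ 1) (hxz : x ≠ z) :
    ∃ c, c * z = z * c ∧ S.π (c * x * c⁻¹) = τ₀ := by
  have hπx : S.π x ≠ 0 := by
    intro h
    rcases (S.πker x hx).1 h with h | h
    · exact hx1 h
    · exact hxz h
  have hq : qV (S.π x) = 0 := by
    have h := S.sq x hx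
    rw [hxx] at h
    rcases zmod2_cases (qV (S.π x)) with h3 | h3
    · exact h3
    · rw [h3, pw_one] at h
      exact (S.z1 h.symm).elim
  obtain ⟨w, hw, hwa⟩ := trans_sing hq hπx q_τ₀ τ₀_ne
  obtain ⟨c, hc, hcw⟩ := S.ψsurj w hw
  exact ⟨c, hc, by rw [S.πψ c hc x hx, hcw, hwa]⟩

theorem conj_conj_inv (g a : G) : g * (g⁻¹ * a * g) * g⁻¹ = a := by group

theorem comm_conj_inv {a b : G} (g : G) (h : a * b = b * a) :
    (g⁻¹ * a * g) * (g⁻¹ * b * g) = (g⁻¹ * b * g) * (g⁻¹ * a * g) := by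
  calc (g⁻¹ * a * g) * (g⁻¹ * b * g) = g⁻¹ * (a * b) * g := by group
    _ = g⁻¹ * (b * a) * g := by rw [h]
    _ = _ := by group

/-- The involution `g⁻¹ z g` lies in `Q` as soon as `g z g⁻¹` does with label `τ₀`. -/
theorem conj_mem (S : Setup z) {g t : G} (ht : t ∈ S.Q) (hπ : S.π t = τ₀) (hg : g * z * g⁻¹ = t) :
    g⁻¹ * z * g ∈ S.Q := by
  by_contra hw
  obtain ⟨f, hfz, hft, hf5, hψ⟩ := exists_five S ht hπ
  have hzt : g⁻¹ * t * g = z := by rw [← hg]; group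
  set w := g⁻¹ * z * g with hwdef
  set f₁ := g⁻¹ * f * g with hf₁
  have hwz : w * z = z * w := by
    have := comm_conj_inv g (S.Qc t ht).symm
    rwa [hzt] at this
  have hf₁z : f₁ * z = z * f₁ := by
    have := comm_conj_inv g hft
    rwa [hzt] at this
  have hf₁w : f₁ * w = w * f₁ := comm_conj_inv g hfz
  have hf₁5 : f₁ ^ 5 = 1 := by
    have e : f₁ ^ 5 = g⁻¹ * f ^ 5 * g := by
      rw [hf₁]
      have := conj_pow (a := g⁻¹) (b := f) (i := 5)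
      rw [inv_inv] at this
      exact this
    rw [e, hf5]
    group
  have hww : w * w = 1 := by
    have e : w * w = g⁻¹ * (z * z) * g := by rw [hwdef]; group
    rw [e, S.zz]
    group
  have hf₁1 : S.ψ f₁ ≠ 1 := by
    intro h1
    have hQ : f₁ ∈ S.Q := (S.ψker _ hf₁z).1 h1
    have h4 := Q_pow4 S hQ
    have h11 : f₁ = 1 := by
      have e : f₁ = f₁ ^ 5 * (f₁ ^ 4)⁻¹ := by
        rw [eq_mul_inv_iff_mul_eq, ← pow_succ']
      rw [e, hf₁5, h4]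
      simp
    have : f = 1 := by
      have e := conj_conj_inv g f
      rw [← hf₁, h11] at e
      rw [← e]
      group
    apply ω₀_ne
    rw [← hψ, this]
    exact ψ_one S
  have hψw : S.ψ w ≠ 1 := fun h => hw ((S.ψker _ hwz).1 h)
  have hψww : S.ψ w * S.ψ w = 1 := by
    rw [← S.ψmul _ _ hwz hwz, hww]
    exact ψ_one S
  refine no_ten (S.ψ w) (S.ψ f₁) (S.ψmem _ hwz) hψww hψw ?_ hf₁1 ?_
  · rw [← (ψ_pow S hf₁z 5).1, hf₁5]
    exact ψ_one S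
  · rw [← S.ψmul _ _ hwz hf₁z, ← hf₁w, S.ψmul _ _ hf₁z hwz]

/-- Reaching the normal form. -/
theorem exists_NF {G : Type*} [Group G] [Finite G] {z : G} (S : Setup z) (g₀ : G)
    (h1 : g₀ * z * g₀⁻¹ ∈ S.Q) (h2 : g₀ * z * g₀⁻¹ ≠ z) : ∃ g t, Core.NF S g t := by
  set t₀ := g₀ * z * g₀⁻¹ with ht₀
  have ht₀t₀ : t₀ * t₀ = 1 := by
    have e : t₀ * t₀ = g₀ * (z * z) * g₀⁻¹ := by rw [ht₀]; group
    rw [e, S.zz]
    group
  have ht₀1 : t₀ ≠ 1 := by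
    intro h
    apply S.z1
    have e : z = g₀⁻¹ * t₀ * g₀ := by rw [ht₀]; group
    rw [e, h]
    group
  obtain ⟨c, hc, hcπ⟩ := exists_move S h1 ht₀t₀ ht₀1 h2
  -- the first step
  set t := c * t₀ * c⁻¹ with ht
  set g₁ := c * g₀ with hg₁
  have htQ : t ∈ S.Q := S.Qn c hc t₀ h1
  have hg₁z : g₁ * z * g₁⁻¹ = t := by
    rw [hg₁, ht, ht₀]; group
  have hwQ := conj_mem S htQ hcπ hg₁z
  set w := g₁⁻¹ * z * g₁ with hw
  have hww : w * w = 1 := by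
    have e : w * w = g₁⁻¹ * (z * z) * g₁ := by rw [hw]; group
    rw [e, S.zz]
    group
  have hw1 : w ≠ 1 := by
    intro h
    apply S.z1
    have e : z = g₁ * w * g₁⁻¹ := by rw [hw]; group
    rw [e, h]
    group
  have hwz : w ≠ z := by
    intro h
    have h3 : g₁ * z * g₁⁻¹ = z := by
      conv_lhs => rw [← h, hw]
      group
    rw [hg₁z] at h3
    have h4 := hcπ
    rw [h3, π_z S] at h4
    exact τ₀_ne h4.symm
  -- the second step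
  obtain ⟨c₂, hc₂, hc₂π⟩ := exists_move S hwQ hww hw1 hwz
  set t₂ := c₂ * w * c₂⁻¹ with ht₂
  set g₂ := g₁ * c₂⁻¹ with hg₂
  have hc₂z : c₂⁻¹ * z * c₂ = z := by
    rw [mul_assoc, inv_mul_eq_iff_eq_mul]
    exact hc₂.symm
  have hg₂z : g₂ * z * g₂⁻¹ = t := by
    have e : g₂ * z * g₂⁻¹ = g₁ * (c₂⁻¹ * z * c₂) * g₁⁻¹ := by rw [hg₂]; group
    rw [e, hc₂z, hg₁z]
  have hg₂i : g₂⁻¹ * z * g₂ = t₂ := by
    rw [hg₂, ht₂, hw]; group
  have ht₂Q : t₂ ∈ S.Q := S.Qn c₂ hc₂ w hwQ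
  rcases eq_of_π S ht₂Q htQ (hc₂π.trans hcπ.symm) with h3 | h3
  · exact ⟨g₂, t, htQ, hcπ, hg₂z, by rw [hg₂i, h3]⟩
  · obtain ⟨x, hx, hxv⟩ := S.πsurj v₁
    have h4 : x * t * x⁻¹ = z * t := by
      rw [conj_Q S hx htQ, hxv, hcπ, bV_comm, b_τ₀_v₁, pw_one]
    have hxz : x⁻¹ * z * x = z := by
      rw [mul_assoc, inv_mul_eq_iff_eq_mul]
      exact (S.Qc x hx).symm
    have hxz' : x * z * x⁻¹ = z := mul_inv_eq_iff_eq_mul.2 (S.Qc x hx)
    refine ⟨g₂ * x⁻¹, t, htQ, hcπ, ?_, ?_⟩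
    · have e : (g₂ * x⁻¹) * z * (g₂ * x⁻¹)⁻¹ = g₂ * (x⁻¹ * z * x) * g₂⁻¹ := by group
      rw [e, hxz, hg₂z]
    · have e : (g₂ * x⁻¹)⁻¹ * z * (g₂ * x⁻¹) = x * (g₂⁻¹ * z * g₂) * x⁻¹ := by group
      have e2 : x * (z * t) * x⁻¹ = (x * z * x⁻¹) * (x * t * x⁻¹) := by group
      rw [e, hg₂i, h3, e2, hxz', h4, ← mul_assoc, S.zz, one_mul]

end Cfsg.Agent.Lib.SuzInv.NormalForm
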