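import Cfsg.Agent.Lib.SuzInv.Refl
import Cfsg.Agent.Lib.Elusive.OmegaMem

/-!
# Facts on `Ω₆⁻(2)`: reflections, transitivity on singular vectors, involutions and elements of order five
-/

set_option autoImplicit false
set_option linter.unusedSectionVars false
set_option linter.unusedVariables false
set_option maxRecDepth 100000

namespace Cfsg.Agent.Lib.SuzInv.OmFacts

open Cfsg Matrix Cfsg.Agent.Lib.SuzInv.Defs Cfsg.Agent.Lib.SuzInv.Basic Cfsg.Agent.Lib.SuzInv.Refl

/-! ### Products of two reflections -/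

set_option synthInstance.maxHeartbeats 400000 in
set_option synthInstance.maxSize 2000 in
theorem exists_d : ∀ a c : V, qV a = 1 → qV c = 1 → ∃ d, qV d = 1 ∧ bV a d = 1 ∧ bV c d = 1 := by
  decide +kernel

theorem rf_inv (a : V) : (rf a)⁻¹ = rf a := inv_eq_of_mul_eq_one_left (rf_mul_self a)

theorem rf_mul_rf_of_b {a c : V} (ha : qV a = 1) (hc : qV c = 1) (h : bV a c = 1) :
    rf a * rf c ∈ commutator OO := by
  have hac : qV (a + c) = 1 := by
    rw [qV_add, ha, hc, h]
    decide
  have e : act (rf (a + c)) a = c := by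
    rw [act_rf hac, bV_add_right, bV_self, h, zero_add, one_smul, ← add_assoc, V_add_self, zero_add]
  have e2 := rf_conj (h := rf (a + c)) a
  rw [e] at e2
  rw [commutator_eq_closure]
  refine Subgroup.subset_closure ⟨rf a, rf (a + c), ?_⟩
  rw [commutatorElement_def, rf_inv a, ← e2]
  group

theorem rf_mul_rf_mem {a c : V} (ha : qV a = 1) (hc : qV c = 1) : rf a * rf c ∈ commutator OO := by
  obtain ⟨d, hd, h1, h2⟩ := exists_d a c ha hc
  have h3 := rf_mul_rf_of_b ha hd h1
  have h4 := rf_mul_rf_of_b hd hc (by rw [bV_comm]; exact h2)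
  have e : rf a * rf c = (rf a * rf d) * (rf d * rf c) := by
    rw [mul_assoc, ← mul_assoc (rf d), rf_mul_self, one_mul]
  rw [e]
  exact mul_mem h3 h4

/-! ### The displacement map -/

/-- The displacement `x ↦ w x + x`. -/
def NN (w : OO) (x : V) : V := act w x + x

theorem NN_add (w : OO) (x y : V) : NN w (x + y) = NN w x + NN w y := by
  simp only [NN, act_add]
  abel

theorem NN_zero (w : OO) : NN w 0 = 0 := by
  simp [NN, act_zero]

theorem act_eq_of_NN {w : OO} {x : V} (h : NN w x = 0) : act w x = x := V_eq_of_add_eq_zero h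

theorem NN_NN {w : OO} (h2 : w * w = 1) (x : V) : NN w (NN w x) = 0 := by
  show act w (act w x + x) + (act w x + x) = 0
  rw [act_add, ← act_mul, h2, act_one]
  have : x + act w x + (act w x + x) = (x + x) + (act w x + act w x) := by abel
  rw [this, V_add_self, V_add_self, add_zero]

theorem b_NN {w : OO} (h2 : w * w = 1) (x y : V) : bV (NN w x) y = bV x (NN w y) := by
  show bV (act w x + x) y = bV x (act w y + y)
  rw [bV_add_left, bV_add_right]
  have : bV (act w x) y = bV x (act w y) := by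
    have := b_act w (act w x) y
    rw [← act_mul, h2, act_one] at this
    exact this.symm
  rw [this]

theorem b_self_NN (w : OO) (x : V) : bV x (NN w x) = qV (NN w x) := by
  show bV x (act w x + x) = qV (act w x + x)
  rw [bV_add_right, bV_self, add_zero, qV_add, q_act, bV_comm, zmod2_add_self, zero_add]

/-- The image of the displacement map. -/
def SS (w : OO) : Finset V := Finset.univ.image (NN w)

theorem mem_SS {w : OO} {y : V} : y ∈ SS w ↔ ∃ x, NN w x = y := by
  simp [SS]

theorem NN_mem (w : OO) (x : V) : NN w x ∈ SS w := mem_SS.2 ⟨x, rfl⟩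

theorem zero_mem_SS (w : OO) : (0 : V) ∈ SS w := mem_SS.2 ⟨0, NN_zero w⟩

/-- The matrix of an isometry. -/
abbrev XX (w : OO) : Matrix Idx Idx (ZMod 2) := ((w : GL Idx (ZMod 2)) : Matrix Idx Idx (ZMod 2))

theorem V_sub (u v : V) : u - v = u + v := by
  funext i
  simp only [Pi.sub_apply, Pi.add_apply]
  have key : ∀ p r : ZMod 2, p - r = p + r := by decide
  exact key _ _

theorem card_SS (w : OO) : (SS w).card = 2 ^ (XX w - 1).rank := by
  classical
  let N := (XX w - 1).mulVecLin
  have hrank : (XX w - 1).rank = Module.finrank (ZMod 2) (LinearMap.range N) := rfl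
  have hcard : Nat.card (LinearMap.range N) = 2 ^ Module.finrank (ZMod 2) (LinearMap.range N) := by
    have := Module.natCard_eq_pow_finrank (K := ZMod 2) (V := LinearMap.range N)
    rwa [Nat.card_zmod] at this
  have hs : ((SS w : Finset V) : Set V) = (LinearMap.range N : Set V) := by
    ext v
    rw [Finset.mem_coe, mem_SS]
    constructor
    · rintro ⟨x, rfl⟩
      refine ⟨x, ?_⟩
      show (XX w - 1) *ᵥ x = _
      rw [Matrix.sub_mulVec, Matrix.one_mulVec, V_sub]
      rfl
    · rintro ⟨x, rfl⟩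
      refine ⟨x, ?_⟩
      show _ = (XX w - 1) *ᵥ x
      rw [Matrix.sub_mulVec, Matrix.one_mulVec, V_sub]
      rfl
  rw [hrank, ← hcard]
  have h3 : Nat.card (LinearMap.range N) = Nat.card ((SS w : Finset V) : Set V) := by
    rw [hs]
    rfl
  rw [h3, Nat.card_coe_set_eq, Set.ncard_coe_finset]

theorem Q0_nondeg : (QuadraticMap.polarBilin Q0).Nondegenerate :=
  Cfsg.Agent.Lib.Orth.Forms.minusForm_nondeg 2 (by decide)

theorem even_rank {w : OO} (hw : w ∈ commutator OO) : Even (XX w - 1).rank := by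
  apply Cfsg.Agent.Lib.Elusive.OmegaMem.even_rank_of_mem_omega Q0 Q0_nondeg (Or.inr (by decide))
  exact (Cfsg.Agent.Lib.Elusive.OmegaMem.mem_omegaGL_iff _ _).2 ⟨w.2, hw⟩

/-! ### Reflections are not in the commutator subgroup -/

theorem exists_nonperp : ∀ a : V, a ≠ 0 → ∃ u, bV u a = 1 := by
  decide +kernel

theorem rf_not_mem {a : V} (ha : qV a = 1) : rf a ∉ commutator OO := by
  intro h
  obtain ⟨r, hr⟩ := even_rank h
  have hc := card_SS (rf a)
  have ha0 : a ≠ 0 := by
    rintro rfl
    exact absurd ha (by decide +kernel)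
  have hsub : SS (rf a) = {0, a} := by
    ext v
    rw [mem_SS, Finset.mem_insert, Finset.mem_singleton]
    have key : ∀ x : V, NN (rf a) x = bV x a • a := by
      intro x
      show act (rf a) x + x = _
      rw [act_rf ha, add_comm x, add_assoc, V_add_self, add_zero]
    constructor
    · rintro ⟨x, rfl⟩
      rw [key]
      rcases zmod2_cases (bV x a) with h0 | h0 <;> rw [h0]
      · left; rw [zero_smul]
      · right; rw [one_smul]
    · rintro (rfl | rfl)
      · exact ⟨0, NN_zero _⟩
      · obtain ⟨u, hu⟩ := exists_nonperp _ ha0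
        exact ⟨u, by rw [key, hu, one_smul]⟩
  rw [hsub, Finset.card_pair (Ne.symm ha0), hr] at hc
  have h4 : r + r = 2 * r := by ring
  rw [h4, pow_mul] at hc
  have h5 : 1 ≤ r ∨ r = 0 := by omega
  rcases h5 with h5 | rfl
  · have : 2 ^ 2 ≤ (2 ^ 2) ^ r := Nat.le_self_pow (by omega) _
    omega
  · simp at hc

/-! ### Transitivity on the singular vectors -/

theorem exists_c : ∀ u : V, ∃ c, qV c = 1 ∧ bV u c = 0 := by
  decide +kernel

set_option synthInstance.maxHeartbeats 400000 in
set_option synthInstance.maxSize 2000 in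
theorem exists_third : ∀ u v : V, u ≠ 0 → v ≠ 0 → qV u = 0 → qV v = 0 →
    ∃ w, qV w = 0 ∧ bV u w = 1 ∧ bV v w = 1 := by
  decide +kernel

theorem trans_step {u v : V} (hu : qV u = 0) (hv : qV v = 0) (h : bV u v = 1) :
    ∃ w ∈ commutator OO, act w u = v := by
  have ha : qV (u + v) = 1 := by
    rw [qV_add, hu, hv, h]
    decide
  obtain ⟨c, hc, huc⟩ := exists_c u
  refine ⟨rf (u + v) * rf c, rf_mul_rf_mem ha hc, ?_⟩
  rw [act_mul, act_rf hc, huc, zero_smul, add_zero, act_rf ha, bV_add_right, bV_self, h, zero_add, one_smul,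
    ← add_assoc, V_add_self, zero_add]

theorem trans_sing {u v : V} (hu : qV u = 0) (hu0 : u ≠ 0) (hv : qV v = 0) (hv0 : v ≠ 0) :
    ∃ w ∈ commutator OO, act w u = v := by
  obtain ⟨t, ht, h1, h2⟩ := exists_third u v hu0 hv0 hu hv
  obtain ⟨w1, hw1, e1⟩ := trans_step hu ht h1
  obtain ⟨w2, hw2, e2⟩ := trans_step ht hv (by rw [bV_comm]; exact h2)
  exact ⟨w2 * w1, mul_mem hw2 hw1, by rw [act_mul, e1, e2]⟩

/-! ### Involutions -/

theorem XX_mul (w w' : OO) : XX (w * w') = XX w * XX w' := rfl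

theorem NN_eq_zero_of_card {w : OO} (h : (SS w).card = 1) (x : V) : NN w x = 0 := by
  obtain ⟨a, ha⟩ := Finset.card_eq_one.1 h
  have h1 := zero_mem_SS w
  have h2 := NN_mem w x
  rw [ha, Finset.mem_singleton] at h1 h2
  rw [h1, h2]

theorem card_SS_of_inv {w : OO} (hw : w ∈ commutator OO) (h2 : w * w = 1) (h1 : w ≠ 1) : (SS w).card = 4 := by
  have hc := card_SS w
  obtain ⟨r, hr⟩ := even_rank hw
  have hX : XX w * XX w = 1 := by
    rw [← XX_mul, h2]
    rfl
  have hb := Cfsg.Agent.Lib.Elusive.OmegaMem.two_mul_rank_le_of_sq (XX w) hX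
  have h6 : Fintype.card Idx = 6 := by decide
  rw [h6, hr] at hb
  have hr0 : r ≠ 0 := by
    rintro rfl
    rw [hr] at hc
    apply h1
    apply act_ext
    intro v
    rw [act_one]
    exact act_eq_of_NN (NN_eq_zero_of_card (by simpa using hc) v)
  have hr1 : r = 1 := by omega
  rw [hr, hr1] at hc
  simpa using hc

theorem exists_tau {w : OO} (h2 : w * w = 1) (hcard : (SS w).card = 4) :
    ∃ τ ∈ SS w, τ ≠ 0 ∧ qV τ = 0 := by
  classical
  obtain ⟨e1, he1, hne1⟩ : ∃ e ∈ SS w, e ≠ 0 := Finset.exists_mem_ne (by omega) 0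
  have hlt : ({0, e1} : Finset V).card < (SS w).card := by
    have := Finset.card_le_two (a := (0 : V)) (b := e1)
    omega
  obtain ⟨e2, he2, hne2⟩ := Finset.exists_mem_notMem_of_card_lt_card hlt
  rw [Finset.mem_insert, Finset.mem_singleton, not_or] at hne2
  obtain ⟨x1, rfl⟩ := mem_SS.1 he1
  obtain ⟨x2, rfl⟩ := mem_SS.1 he2
  have hb : bV (NN w x1) (NN w x2) = 0 := by
    rw [b_NN h2, NN_NN h2, bV_zero_right]
  rcases zmod2_cases (qV (NN w x1)) with h3 | h3
  · exact ⟨_, he1, hne1, h3⟩
  rcases zmod2_cases (qV (NN w x2)) with h4 | h4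
  · exact ⟨_, he2, hne2.1, h4⟩
  refine ⟨NN w (x1 + x2), NN_mem _ _, ?_, ?_⟩
  · rw [NN_add]
    intro h0
    exact hne2.2 (V_eq_of_add_eq_zero h0).symm
  · rw [NN_add, qV_add, h3, h4, hb]
    decide

theorem card_four {τ y : V} (h1 : τ ≠ 0) (h2 : y ≠ 0) (h3 : y ≠ τ) : ({0, τ, y, y + τ} : Finset V).card = 4 := by
  have a1 : y + τ ≠ 0 := fun h => h3 (V_eq_of_add_eq_zero h)
  have a2 : τ ≠ y + τ := fun h => h2 (by
    have : y = (y + τ) + τ := by rw [add_assoc, V_add_self, add_zero]
    rw [this, ← h, V_add_self])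
  have a3 : y ≠ y + τ := fun h => h1 (by
    have : τ = y + (y + τ) := by rw [← add_assoc, V_add_self, zero_add]
    rw [this, ← h, V_add_self])
  rw [Finset.card_insert_of_notMem, Finset.card_insert_of_notMem, Finset.card_insert_of_notMem, Finset.card_singleton]
  · simp only [Finset.mem_singleton]
    exact a3
  · simp only [Finset.mem_insert, Finset.mem_singleton, not_or]
    exact ⟨h3.symm, a2⟩
  · simp only [Finset.mem_insert, Finset.mem_singleton, not_or]
    exact ⟨h1.symm, h2.symm, a1.symm⟩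

theorem inv_mem_A (w : OO) (hw : w ∈ commutator OO) (h2 : w * w = 1) (h1 : w ≠ 1) :
    ∃ τ : V, qV τ = 0 ∧ τ ≠ 0 ∧ act w τ = τ ∧ ∀ u, bV u τ = 0 → act w u + u = 0 ∨ act w u + u = τ := by
  have hcard := card_SS_of_inv hw h2 h1
  obtain ⟨τ, hτ, hτ0, hqτ⟩ := exists_tau h2 hcard
  obtain ⟨t, rfl⟩ := mem_SS.1 hτ
  refine ⟨NN w t, hqτ, hτ0, act_eq_of_NN (NN_NN h2 t), ?_⟩
  intro u hu
  by_contra hcon
  rw [not_or] at hcon
  obtain ⟨hy0, hyτ⟩ := hcon
  have hy0' : NN w u ≠ 0 := hy0
  have hyτ' : NN w u ≠ NN w t := hyτ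
  have hsub : ({0, NN w t, NN w u, NN w u + NN w t} : Finset V) ⊆ SS w := by
    intro v hv
    simp only [Finset.mem_insert, Finset.mem_singleton] at hv
    rcases hv with rfl | rfl | rfl | rfl
    · exact zero_mem_SS w
    · exact NN_mem _ _
    · exact NN_mem _ _
    · rw [← NN_add]
      exact NN_mem _ _
  have hT := Finset.eq_of_subset_of_card_le hsub (by rw [card_four hτ0 hy0' hyτ', hcard])
  have key : ∀ z, bV (NN w z) t = 0 := by
    intro z
    have hz := NN_mem w z
    rw [← hT] at hz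
    simp only [Finset.mem_insert, Finset.mem_singleton] at hz
    have ht0 : bV (NN w t) t = 0 := by
      rw [bV_comm, b_self_NN, hqτ]
    have hu0 : bV (NN w u) t = 0 := by
      rw [b_NN h2, hu]
    rcases hz with hz | hz | hz | hz <;> rw [hz]
    · exact bV_zero_left _
    · exact ht0
    · exact hu0
    · rw [bV_add_left, ht0, hu0, add_zero]
  obtain ⟨z, hz⟩ := exists_nonperp _ hτ0
  rw [← b_NN h2, key] at hz
  exact absurd hz (by decide)

/-! ### Elements of order five -/

theorem act_inj (g : OO) {x y : V} (h : act g x = act g y) : x = y := by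
  rw [← act_inv g x, h, act_inv]

theorem act_pow_fix {F : OO} {x : V} (h : act F x = x) (n : ℕ) : act (F ^ n) x = x := by
  induction n with
  | zero => rw [pow_zero, act_one]
  | succ k ih => rw [pow_succ, act_mul, h, ih]

theorem five_c {F : OO} (hF : F ^ 5 = 1) {c x : V} (hc : act F c = c) (hx : act F x = x + c) : c = 0 := by
  have h2 : act (F * F) x = x := by
    rw [act_mul, hx, act_add, hx, hc, add_assoc, V_add_self, add_zero]
  have h4 : act (F ^ 4) x = x := by
    have : F ^ 4 = (F * F) ^ 2 := by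
      rw [← pow_two, ← pow_mul]
    rw [this]
    exact act_pow_fix h2 2
  have h5 : act (F ^ 5) x = x + c := by
    rw [pow_succ', act_mul, h4, hx]
  rw [hF, act_one] at h5
  have : c = x + (x + c) := by rw [← add_assoc, V_add_self, zero_add]
  rw [this, ← h5, V_add_self]

theorem fix_of_pow {f : OO} (hf : f ^ 5 = 1) {x : V} {m : ℕ} (h0 : m ≠ 0) (h5 : m < 5) (h : act (f ^ m) x = x) :
    act f x = x := by
  have hk : ∀ k n : ℕ, m * n = 5 * k + 1 → act f x = x := by
    intro k n hn
    have e : (f ^ m) ^ n = f := by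
      rw [← pow_mul, hn, pow_succ, pow_mul, hf, one_pow, one_mul]
    have := act_pow_fix h n
    rwa [e] at this
  have hm : m = 1 ∨ m = 2 ∨ m = 3 ∨ m = 4 := by omega
  rcases hm with rfl | rfl | rfl | rfl
  · exact hk 0 1 rfl
  · exact hk 1 3 rfl
  · exact hk 1 2 rfl
  · exact hk 3 4 rfl

theorem orbit_aux {f : OO} (hf : f ^ 5 = 1) (A : Finset V) (hA : ∀ a ∈ A, act f a = a)
    (hadd : ∀ a ∈ A, ∀ b ∈ A, a + b ∈ A) {x : V} (hx : act f x ≠ x) {i j : ℕ} (hji : j ≤ i) (hi : i < 5)
    {a a' : V} (ha : a ∈ A) (ha' : a' ∈ A) (h : act (f ^ i) x + a = act (f ^ j) x + a') : i = j ∧ a = a' := by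
  obtain ⟨m, rfl⟩ := Nat.exists_eq_add_of_le hji
  have h1 : act (f ^ j) (act (f ^ m) x + (a + a')) = act (f ^ j) x := by
    rw [act_add, ← act_mul, ← pow_add]
    have h3 : act (f ^ j) (a + a') = a + a' := act_pow_fix (hA _ (hadd a ha a' ha')) j
    rw [h3]
    have : act (f ^ (j + m)) x + (a + a') = (act (f ^ (j + m)) x + a) + a' := by rw [add_assoc]
    rw [this, h, add_assoc, V_add_self, add_zero]
  have h2 := act_inj _ h1
  have h3 : act (f ^ m) x = x + (a + a') := by
    have : act (f ^ m) x = (act (f ^ m) x + (a + a')) + (a + a') := by rw [add_assoc, V_add_self, add_zero]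
    rw [this, h2]
  have h4 : (f ^ m) ^ 5 = 1 := by
    rw [← pow_mul, mul_comm, pow_mul, hf, one_pow]
  have h5 := five_c h4 (act_pow_fix (hA _ (hadd a ha a' ha')) m) h3
  have h6 : a = a' := V_eq_of_add_eq_zero h5
  rw [h5, add_zero] at h3
  by_cases hm : m = 0
  · subst hm
    exact ⟨rfl, h6⟩
  · exact absurd (fix_of_pow hf hm (by omega) h3) hx

theorem five_mul_card_le {f : OO} (hf : f ^ 5 = 1) (A B : Finset V) (hA : ∀ a ∈ A, act f a = a)
    (hadd : ∀ a ∈ A, ∀ b ∈ A, a + b ∈ A) {x : V} (hx : act f x ≠ x)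
    (hB : ∀ i : ℕ, ∀ a ∈ A, act (f ^ i) x + a ∈ B) : 5 * A.card ≤ B.card := by
  have h := Finset.card_le_card_of_injOn (s := (Finset.univ : Finset (Fin 5)) ×ˢ A) (t := B)
    (fun p => act (f ^ (p.1 : ℕ)) x + p.2) (fun p hp => hB _ _ (Finset.mem_product.1 hp).2) ?_
  · simpa [Finset.card_product] using h
  · rintro ⟨i, a⟩ hp ⟨j, a'⟩ hq e
    have ha := (Finset.mem_product.1 (Finset.mem_coe.1 hp)).2
    have ha' := (Finset.mem_product.1 (Finset.mem_coe.1 hq)).2
    simp only at e ha ha'
    rcases le_total (j : ℕ) (i : ℕ) with hle | hle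
    · obtain ⟨h1, h2⟩ := orbit_aux hf A hA hadd hx hle i.2 ha ha' e
      rw [Fin.ext h1, h2]
    · obtain ⟨h1, h2⟩ := orbit_aux hf A hA hadd hx hle j.2 ha' ha e.symm
      rw [Fin.ext h1, h2]

set_option synthInstance.maxHeartbeats 400000 in
set_option synthInstance.maxSize 2000 in
theorem cardK : ∀ τ e : V, τ ≠ 0 → e ≠ 0 → τ ≠ e →
    (Finset.univ.filter (fun x : V => bV x τ = 0 ∧ bV x e = 0)).card = 16 := by
  decide +kernel

theorem no_ten (u f : OO) (hu : u ∈ commutator OO) (h2 : u * u = 1) (h1 : u ≠ 1) (hf : f ^ 5 = 1)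
    (hf1 : f ≠ 1) (huf : u * f = f * u) : False := by
  have hcard := card_SS_of_inv hu h2 h1
  -- `f` preserves the image of the displacement map
  have hpres : ∀ y ∈ SS u, act f y ∈ SS u := by
    intro y hy
    obtain ⟨x, rfl⟩ := mem_SS.1 hy
    refine mem_SS.2 ⟨act f x, ?_⟩
    show act u (act f x) + act f x = act f (act u x + x)
    rw [← act_mul, huf, act_mul, act_add]
  have hpres' : ∀ i : ℕ, ∀ y ∈ SS u, act (f ^ i) y ∈ SS u := by
    intro i
    induction i with
    | zero =>
      intro y hy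
      rwa [pow_zero, act_one]
    | succ k ih =>
      intro y hy
      rw [pow_succ, act_mul]
      exact ih _ (hpres y hy)
  have hfix : ∀ y ∈ SS u, act f y = y := by
    intro y hy
    by_cases hy0 : y = 0
    · rw [hy0, act_zero]
    have hlt : ((SS u).erase 0).card < (Finset.range 4).card := by
      rw [Finset.card_erase_of_mem (zero_mem_SS u), hcard, Finset.card_range]
      omega
    obtain ⟨i, hi, j, hj, hne, he⟩ := Finset.exists_ne_map_eq_of_card_lt_of_maps_to hlt
      (f := fun i => act (f ^ i) y) (by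
        intro i _
        rw [Finset.mem_coe, Finset.mem_erase]
        refine ⟨?_, hpres' i y hy⟩
        intro h0
        apply hy0
        apply act_inj (f ^ i)
        rw [act_zero]
        exact h0)
    simp only [Finset.mem_range] at hi hj
    have key : ∀ {i j : ℕ}, j < i → i < 4 → act (f ^ i) y = act (f ^ j) y → act f y = y := by
      intro i j hji hi he
      obtain ⟨m, rfl⟩ := Nat.exists_eq_add_of_le hji.le
      rw [pow_add, act_mul] at he
      exact fix_of_pow hf (by omega) (by omega) (act_inj _ he)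
    rcases lt_or_gt_of_ne hne with hl | hl
    · exact key hl hj he.symm
    · exact key hl hi he
  -- two distinct nonzero vectors in the image
  obtain ⟨τ, hτ, hτ0⟩ : ∃ e ∈ SS u, e ≠ 0 := Finset.exists_mem_ne (by omega) 0
  have hlt : ({0, τ} : Finset V).card < (SS u).card := by
    have := Finset.card_le_two (a := (0 : V)) (b := τ)
    omega
  obtain ⟨e, he, hne⟩ := Finset.exists_mem_notMem_of_card_lt_card hlt
  rw [Finset.mem_insert, Finset.mem_singleton, not_or] at hne
  obtain ⟨he0, heτ⟩ := hne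
  have hτe : bV τ e = 0 := by
    obtain ⟨x1, rfl⟩ := mem_SS.1 hτ
    obtain ⟨x2, rfl⟩ := mem_SS.1 he
    rw [b_NN h2, NN_NN h2, bV_zero_right]
  have hfτ := hfix τ hτ
  have hfe := hfix e he
  -- the perpendicular space
  let K : Finset V := Finset.univ.filter (fun x : V => bV x τ = 0 ∧ bV x e = 0)
  have hK : K.card = 16 := cardK τ e hτ0 he0 (Ne.symm heτ)
  have memK : ∀ x, x ∈ K ↔ bV x τ = 0 ∧ bV x e = 0 := by
    intro x
    simp [K]
  have hKf : ∀ i : ℕ, ∀ x ∈ K, act (f ^ i) x ∈ K := by
    intro i x hx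
    rw [memK] at hx ⊢
    constructor
    · nth_rewrite 1 [← act_pow_fix hfτ i]
      rw [b_act]
      exact hx.1
    · nth_rewrite 1 [← act_pow_fix hfe i]
      rw [b_act]
      exact hx.2
  -- `f` fixes the perpendicular space
  have hKfix : ∀ x ∈ K, act f x = x := by
    intro x hx
    by_contra hmov
    let A : Finset V := K.filter (fun y => act f y = y)
    have hA4 : 4 ≤ A.card := by
      have hsub : ({0, τ, e, e + τ} : Finset V) ⊆ A := by
        intro v hv
        simp only [Finset.mem_insert, Finset.mem_singleton] at hv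
        simp only [A, Finset.mem_filter, memK]
        rcases hv with rfl | rfl | rfl | rfl
        · exact ⟨⟨bV_zero_left _, bV_zero_left _⟩, act_zero _⟩
        · exact ⟨⟨bV_self _, hτe⟩, hfτ⟩
        · exact ⟨⟨by rw [bV_comm]; exact hτe, bV_self _⟩, hfe⟩
        · refine ⟨⟨?_, ?_⟩, ?_⟩
          · rw [bV_add_left, bV_self, bV_comm, hτe, add_zero]
          · rw [bV_add_left, bV_self, hτe, add_zero]
          · rw [act_add, hfe, hfτ]
      have := Finset.card_le_card hsub
      rwa [card_four hτ0 he0 heτ] at this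
    have h5 := five_mul_card_le hf A K
      (fun a ha => (Finset.mem_filter.1 ha).2)
      (fun a ha b hb => by
        obtain ⟨ha1, ha2⟩ := Finset.mem_filter.1 ha
        obtain ⟨hb1, hb2⟩ := Finset.mem_filter.1 hb
        refine Finset.mem_filter.2 ⟨?_, by rw [act_add, ha2, hb2]⟩
        rw [memK] at ha1 hb1 ⊢
        exact ⟨by rw [bV_add_left, ha1.1, hb1.1, add_zero], by rw [bV_add_left, ha1.2, hb1.2, add_zero]⟩)
      hmov
      (fun i a ha => by
        have h1 := hKf i x hx
        obtain ⟨ha1, _⟩ := Finset.mem_filter.1 ha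
        rw [memK] at h1 ha1 ⊢
        exact ⟨by rw [bV_add_left, h1.1, ha1.1, add_zero], by rw [bV_add_left, h1.2, ha1.2, add_zero]⟩)
    omega
  -- hence `f` is trivial
  apply hf1
  apply act_ext
  intro x
  rw [act_one]
  by_contra hmov
  have h5 := five_mul_card_le hf K Finset.univ
      hKfix
      (fun a ha b hb => by
        rw [memK] at ha hb ⊢
        exact ⟨by rw [bV_add_left, ha.1, hb.1, add_zero], by rw [bV_add_left, ha.2, hb.2, add_zero]⟩)
      hmov
      (fun i a ha => Finset.mem_univ _)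
  rw [hK, Finset.card_univ] at h5
  have h64 : Fintype.card V = 64 := by
    simp [V, Idx, ZMod.card]
  omega

end Cfsg.Agent.Lib.SuzInv.OmFacts
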