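import Cfsg.Agent.Lib.SuzInv.Basic

/-!
# Reflections in `O₆⁻(2)`
-/

set_option autoImplicit false
set_option linter.unusedSectionVars false
set_option linter.unusedVariables false
set_option maxRecDepth 100000

namespace Cfsg.Agent.Lib.SuzInv.Refl

open Cfsg Matrix Cfsg.Agent.Lib.SuzInv.Defs Cfsg.Agent.Lib.SuzInv.Basic
open Cfsg.Agent.Lib.Orth.Forms Cfsg.Agent.Lib.OrthRefl.Basic Cfsg.Agent.Lib.Orth.Refl QuadraticMap

/-- The quadratic form. -/
noncomputable abbrev Q0 : QuadraticForm (ZMod 2) V := minusForm 2 (ZMod 2) 1 1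

/-- The reflection in a vector. -/
noncomputable def rf (a : V) : OO := rG Q0 a

theorem polar_eq (x a : V) : polar Q0 x a = bV x a := by
  show qV (x + a) - qV x - qV a = qV (x + a) + qV x + qV a
  have key : ∀ p r s : ZMod 2, p - r - s = p + r + s := by decide
  exact key _ _ _

theorem act_rf {a : V} (ha : qV a = 1) (x : V) : act (rf a) x = x + bV x a • a := by
  show ((rG Q0 a : GL Idx (ZMod 2)) : Matrix Idx Idx (ZMod 2)) *ᵥ x = _
  rw [rG_mulVec, refl_apply, polar_eq]
  have h1 : Q0 a = 1 := ha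
  rw [h1, inv_one, one_mul]
  funext i
  simp only [Pi.sub_apply, Pi.add_apply, Pi.smul_apply]
  have key : ∀ p r : ZMod 2, p - r = p + r := by decide
  exact key _ _

theorem rf_mul_self (a : V) : rf a * rf a = 1 := rG_mul_self Q0 a

/-- A reflection moves `a` to `c` through `a + c` when `b(a,c) = 1`. -/
theorem rf_conj {h : OO} (a : V) : h * rf a * h⁻¹ = rf (act h a) := conj_rG Q0 h a

end Cfsg.Agent.Lib.SuzInv.Refl
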