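import Cfsg.Agent.Lib.SuzInv.Refl
import Cfsg.Agent.Lib.LargeExtra.FStar
import Cfsg.Agent.Lib.PGroups.ExtraConstruct
import Cfsg.Agent.Lib.ThreeT.O6Aut
import Cfsg.Agent.Lib.OrthRefl.IndexTwo
import Cfsg.Agent.Lib.F2Quad.Types
import Cfsg.Agent.S0287

/-!
# From the hypotheses of Suzuki sporadic type to the `Setup`
-/

set_option autoImplicit false
set_option linter.unusedSectionVars false
set_option linter.unusedVariables false

namespace Cfsg.Agent.Lib.SuzInv.Rep

open Cfsg Matrix Cfsg.Agent.Lib.SuzInv.Defs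
open Cfsg.Agent.Lib.PGroups.ExtraConstruct Cfsg.Agent.Lib.PGroups.Special
open Cfsg.Agent.Lib.F2Quad.Basic

section Pw

variable {G : Type*} [Group G]

lemma pw_zero (a : G) : pw a 0 = 1 := by simp [pw]
lemma pw_one (a : G) : pw a 1 = a := by simp [pw]

lemma zm2 (a : ZMod 2) : a = 0 ∨ a = 1 := by revert a; decide

lemma pw_inj {z : G} (hz : z ≠ 1) {a b : ZMod 2} (h : pw z a = pw z b) : a = b := by
  rcases zm2 a with rfl | rfl <;> rcases zm2 b with rfl | rfl
  · rfl
  · rw [pw_zero, pw_one] at h; exact absurd h.symm hz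
  · rw [pw_zero, pw_one] at h; exact absurd h hz
  · rfl

lemma pw_conj {z c : G} (hc : c * z = z * c) (a : ZMod 2) : c * pw z a * c⁻¹ = pw z a := by
  rcases zm2 a with rfl | rfl
  · simp [pw_zero]
  · rw [pw_one, hc]; group

end Pw

section Core

variable {G : Type*} [Group G] {ι : Type} [Fintype ι] [DecidableEq ι]

/-- What is needed of the group `Q'` around `z`. -/
structure Model (z : G) (Q' : Subgroup G) (β : LinearMap.BilinForm (ZMod 2) (ι → ZMod 2)) where
  φ : ↥Q' ≃* CE β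
  f : LinearMap.BilinForm (ZMod 2) (ι → ZMod 2)
  hf : ∀ u w, f u w = β u w + β w u
  hnd : f.Nondegenerate
  zQ : z ∈ Q'
  z1 : z ≠ 1
  zz : z * z = 1
  Qc : ∀ x ∈ Q', x * z = z * x
  Qn : ∀ c, c * z = z * c → ∀ x ∈ Q', c * x * c⁻¹ ∈ Q'
  cent : ∀ x, (∀ y ∈ Q', x * y = y * x) → x ∈ Q'

namespace Model

variable {z : G} {Q' : Subgroup G} {β : LinearMap.BilinForm (ZMod 2) (ι → ZMod 2)} (M : Model z Q' β)

/-- The projection to the vector space. -/
noncomputable def pi (x : G) : ι → ZMod 2 := by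
  classical exact if h : x ∈ Q' then (M.φ ⟨x, h⟩).v else 0

lemma pi_of {x : G} (hx : x ∈ Q') : M.pi x = (M.φ ⟨x, hx⟩).v := by
  simp [pi, hx]

/-- A section. -/
noncomputable def sec (v : ι → ZMod 2) : G := (M.φ.symm ⟨v, 0⟩ : ↥Q')

lemma sec_mem (v : ι → ZMod 2) : M.sec v ∈ Q' := (M.φ.symm ⟨v, 0⟩ : ↥Q').2

lemma phi_sec (v : ι → ZMod 2) : M.φ ⟨M.sec v, M.sec_mem v⟩ = ⟨v, 0⟩ := by
  have : (⟨M.sec v, M.sec_mem v⟩ : ↥Q') = M.φ.symm ⟨v, 0⟩ := rfl
  rw [this, MulEquiv.apply_symm_apply]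

lemma pi_sec (v : ι → ZMod 2) : M.pi (M.sec v) = v := by
  rw [M.pi_of (M.sec_mem v), M.phi_sec]

lemma phi_mul {x y : G} (hx : x ∈ Q') (hy : y ∈ Q') :
    M.φ ⟨x * y, Q'.mul_mem hx hy⟩ = M.φ ⟨x, hx⟩ * M.φ ⟨y, hy⟩ := map_mul M.φ ⟨x, hx⟩ ⟨y, hy⟩

lemma phi_congr {x y : G} (h : x = y) (hx : x ∈ Q') (hy : y ∈ Q') : M.φ ⟨x, hx⟩ = M.φ ⟨y, hy⟩ := by
  subst h; rfl

lemma eq_of_phi {x y : G} {hx : x ∈ Q'} {hy : y ∈ Q'} (h : M.φ ⟨x, hx⟩ = M.φ ⟨y, hy⟩) : x = y :=
  congrArg Subtype.val (M.φ.injective h)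

lemma phi_one : M.φ ⟨1, Q'.one_mem⟩ = 1 := map_one M.φ

lemma phi_z : M.φ ⟨z, M.zQ⟩ = ⟨0, 1⟩ := by
  have hc : M.φ ⟨z, M.zQ⟩ ∈ Subgroup.center (CE β) := by
    rw [Subgroup.mem_center_iff]
    intro g
    obtain ⟨x, rfl⟩ := M.φ.surjective g
    rw [← map_mul, ← map_mul]
    congr 1
    apply Subtype.ext
    exact (M.Qc x.1 x.2)
  have hv := CE.v_of_mem_center M.hf M.hnd _ hc
  ext1
  · exact hv
  · rcases zm2 (M.φ ⟨z, M.zQ⟩).a with h | h
    · exfalso
      apply M.z1
      have : M.φ ⟨z, M.zQ⟩ = 1 := by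
        ext1
        · exact hv
        · exact h
      have h2 := M.φ.injective (this.trans (map_one M.φ).symm)
      exact congrArg Subtype.val h2
    · exact h

lemma pi_mul {x y : G} (hx : x ∈ Q') (hy : y ∈ Q') : M.pi (x * y) = M.pi x + M.pi y := by
  rw [M.pi_of (Q'.mul_mem hx hy), M.pi_of hx, M.pi_of hy, M.phi_mul hx hy, CE.mul_v]

lemma pi_z : M.pi z = 0 := by
  rw [M.pi_of M.zQ, M.phi_z]

lemma pi_one : M.pi 1 = 0 := by
  rw [M.pi_of Q'.one_mem, M.phi_one]; rfl

lemma pi_ker {x : G} (hx : x ∈ Q') : M.pi x = 0 ↔ (x = 1 ∨ x = z) := by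
  constructor
  · intro h
    rw [M.pi_of hx] at h
    rcases zm2 (M.φ ⟨x, hx⟩).a with h0 | h0
    · left
      apply M.eq_of_phi (hy := Q'.one_mem)
      rw [M.phi_one]
      ext1
      · exact h
      · exact h0
    · right
      apply M.eq_of_phi (hy := M.zQ)
      rw [M.phi_z]
      ext1
      · exact h
      · exact h0
  · rintro (rfl | rfl)
    · exact M.pi_one
    · exact M.pi_z

lemma sq_eq {x : G} (hx : x ∈ Q') : x * x = pw z (β (M.pi x) (M.pi x)) := by
  have h1 : M.φ ⟨x * x, Q'.mul_mem hx hx⟩ = ⟨0, β (M.pi x) (M.pi x)⟩ := by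
    rw [M.phi_mul hx hx, ← sq, CE.sq_eq, M.pi_of hx]
  rcases zm2 (β (M.pi x) (M.pi x)) with h | h
  · rw [h, pw_zero]
    apply M.eq_of_phi (hy := Q'.one_mem)
    rw [h1, h, M.phi_one]
    rfl
  · rw [h, pw_one]
    apply M.eq_of_phi (hy := M.zQ)
    rw [h1, h, M.phi_z]

lemma decomp {x : G} (hx : x ∈ Q') : ∃ v, v = M.pi x ∧ (x = M.sec v ∨ x = M.sec v * z) := by
  refine ⟨_, rfl, ?_⟩
  rcases zm2 (M.φ ⟨x, hx⟩).a with h | h
  · left
    apply M.eq_of_phi (hx := hx) (hy := M.sec_mem _)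
    rw [M.phi_sec]
    ext1
    · exact (M.pi_of hx).symm
    · exact h
  · right
    apply M.eq_of_phi (hx := hx) (hy := Q'.mul_mem (M.sec_mem _) M.zQ)
    rw [M.phi_mul (M.sec_mem _) M.zQ, M.phi_sec, M.phi_z]
    ext1
    · simp [M.pi_of hx]
    · simp [h]

/-- The action of `c` on the vector space. -/
noncomputable def A (c : G) (v : ι → ZMod 2) : ι → ZMod 2 := M.pi (c * M.sec v * c⁻¹)

lemma conj_z {c : G} (hc : c * z = z * c) : c * z * c⁻¹ = z := by
  rw [hc]; group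

lemma A_spec {c x : G} (hc : c * z = z * c) (hx : x ∈ Q') : M.pi (c * x * c⁻¹) = M.A c (M.pi x) := by
  obtain ⟨v, hv, h⟩ := M.decomp hx
  rw [← hv]
  rcases h with rfl | rfl
  · rfl
  · have e : c * (M.sec v * z) * c⁻¹ = (c * M.sec v * c⁻¹) * z := by
      calc c * (M.sec v * z) * c⁻¹ = (c * M.sec v * c⁻¹) * (c * z * c⁻¹) := by group
        _ = _ := by rw [conj_z hc]
    rw [e, M.pi_mul (M.Qn c hc _ (M.sec_mem v)) M.zQ, M.pi_z, add_zero]
    rfl

lemma A_add {c : G} (hc : c * z = z * c) (u v : ι → ZMod 2) : M.A c (u + v) = M.A c u + M.A c v := by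
  have h := M.A_spec hc (Q'.mul_mem (M.sec_mem u) (M.sec_mem v))
  rw [M.pi_mul (M.sec_mem u) (M.sec_mem v), M.pi_sec, M.pi_sec] at h
  rw [← h]
  have e : c * (M.sec u * M.sec v) * c⁻¹ = (c * M.sec u * c⁻¹) * (c * M.sec v * c⁻¹) := by group
  rw [e, M.pi_mul (M.Qn c hc _ (M.sec_mem u)) (M.Qn c hc _ (M.sec_mem v))]
  rfl

lemma A_q {c : G} (hc : c * z = z * c) (v : ι → ZMod 2) : β (M.A c v) (M.A c v) = β v v := by
  have hm := M.Qn c hc _ (M.sec_mem v)
  have h1 := M.sq_eq hm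
  have h2 := M.sq_eq (M.sec_mem v)
  rw [M.pi_sec] at h2
  apply pw_inj M.z1
  show pw z (β (M.pi (c * M.sec v * c⁻¹)) (M.pi (c * M.sec v * c⁻¹))) = _
  rw [← h1, ← pw_conj hc (β v v), ← h2]
  group

lemma A_mul {c d : G} (hc : c * z = z * c) (hd : d * z = z * d) (v : ι → ZMod 2) :
    M.A (c * d) v = M.A c (M.A d v) := by
  have h := M.A_spec hc (M.Qn d hd _ (M.sec_mem v))
  show M.pi (c * d * M.sec v * (c * d)⁻¹) = _
  have e : c * d * M.sec v * (c * d)⁻¹ = c * (d * M.sec v * d⁻¹) * c⁻¹ := by group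
  rw [e, h]
  rfl

lemma A_one (v : ι → ZMod 2) : M.A 1 v = v := by
  show M.pi (1 * M.sec v * 1⁻¹) = v
  simp [M.pi_sec]

lemma A_of_mem {c : G} (hc : c ∈ Q') (v : ι → ZMod 2) : M.A c v = v := by
  show M.pi (c * M.sec v * c⁻¹) = v
  rw [M.pi_mul (Q'.mul_mem hc (M.sec_mem v)) (Q'.inv_mem hc), M.pi_mul hc (M.sec_mem v), M.pi_sec]
  have h : M.pi c + M.pi c⁻¹ = 0 := by
    rw [← M.pi_mul hc (Q'.inv_mem hc), mul_inv_cancel, M.pi_one]
  calc M.pi c + v + M.pi c⁻¹ = (M.pi c + M.pi c⁻¹) + v := by abel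
    _ = v := by rw [h, zero_add]

/-- An element acting trivially on the vector space lies in `Q'`. -/
theorem mem_of_A {c : G} (hc : c * z = z * c) (hA : ∀ v, M.A c v = v) : c ∈ Q' := by
  have hmem : ∀ x, x ∈ Q' → c * x * c⁻¹ ∈ Q' := M.Qn c hc
  let g : (ι → ZMod 2) → ZMod 2 := fun v => (M.φ ⟨c * M.sec v * c⁻¹, hmem _ (M.sec_mem v)⟩).a
  have hv : ∀ x (hx : x ∈ Q'), (M.φ ⟨c * x * c⁻¹, hmem x hx⟩).v = (M.φ ⟨x, hx⟩).v := by
    intro x hx
    rw [← M.pi_of, ← M.pi_of, M.A_spec hc hx, hA]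
  have hsec : ∀ v, M.φ ⟨c * M.sec v * c⁻¹, hmem _ (M.sec_mem v)⟩ = ⟨v, g v⟩ := by
    intro v
    ext1
    · rw [hv _ (M.sec_mem v), M.phi_sec]
    · rfl
  have hconj : ∀ x (hx : x ∈ Q'), M.φ ⟨c * x * c⁻¹, hmem x hx⟩ = ⟨0, g (M.pi x)⟩ * M.φ ⟨x, hx⟩ := by
    intro x hx
    obtain ⟨v, hv', h⟩ := M.decomp hx
    rw [← hv']
    rcases h with rfl | rfl
    · rw [hsec, M.phi_sec]
      ext1 <;> simp
    · have e : c * (M.sec v * z) * c⁻¹ = (c * M.sec v * c⁻¹) * z := by
        calc c * (M.sec v * z) * c⁻¹ = (c * M.sec v * c⁻¹) * (c * z * c⁻¹) := by group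
          _ = _ := by rw [conj_z hc]
      rw [M.phi_congr e (hmem _ hx) (Q'.mul_mem (hmem _ (M.sec_mem v)) M.zQ),
        M.phi_mul (hmem _ (M.sec_mem v)) M.zQ, hsec, M.phi_mul (M.sec_mem v) M.zQ, M.phi_sec, M.phi_z]
      ext1 <;> simp
  have hadd : ∀ u v, g (u + v) = g u + g v := by
    intro u v
    have hX := Q'.mul_mem (M.sec_mem u) (M.sec_mem v)
    have h1 := hconj _ hX
    have e : c * (M.sec u * M.sec v) * c⁻¹ = (c * M.sec u * c⁻¹) * (c * M.sec v * c⁻¹) := by group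
    rw [M.phi_congr e (hmem _ hX) (Q'.mul_mem (hmem _ (M.sec_mem u)) (hmem _ (M.sec_mem v))),
      M.phi_mul (hmem _ (M.sec_mem u)) (hmem _ (M.sec_mem v)), hsec, hsec,
      M.pi_mul (M.sec_mem u) (M.sec_mem v), M.pi_sec, M.pi_sec,
      M.phi_mul (M.sec_mem u) (M.sec_mem v), M.phi_sec, M.phi_sec] at h1
    have h2 := congrArg CE.a h1
    simp only [CE.mul_a, CE.mul_v, map_zero, LinearMap.zero_apply, add_zero, zero_add] at h2
    exact (add_right_cancel h2).symm
  let L : (ι → ZMod 2) →ₗ[ZMod 2] ZMod 2 := (AddMonoidHom.mk' g hadd).toZModLinearMap 2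
  let y₀ : ι → ZMod 2 := (LinearMap.BilinForm.toDual M.f M.hnd).symm L
  have hy : ∀ v, M.f y₀ v = g v := by
    intro v
    have h1 : M.f y₀ v = (LinearMap.BilinForm.toDual M.f M.hnd y₀) v := by
      rw [LinearMap.BilinForm.toDual_def]
    rw [h1]
    simp only [y₀, LinearEquiv.apply_symm_apply]
    rfl
  have hkey : ∀ x, x ∈ Q' → c * x * c⁻¹ * M.sec y₀ = M.sec y₀ * x := by
    intro x hx
    apply M.eq_of_phi (hx := Q'.mul_mem (hmem x hx) (M.sec_mem y₀)) (hy := Q'.mul_mem (M.sec_mem y₀) hx)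
    rw [M.phi_mul (hmem x hx) (M.sec_mem y₀), M.phi_mul (M.sec_mem y₀) hx, hconj x hx]
    rw [CE.mul_eq (M.φ ⟨M.sec y₀, M.sec_mem y₀⟩) (M.φ ⟨x, hx⟩), M.phi_sec, ← M.pi_of hx]
    show _ = (⟨0, β y₀ (M.pi x) + β (M.pi x) y₀⟩ : CE β) * _
    rw [← M.hf, hy, mul_assoc]
  have hcomm : (M.sec y₀)⁻¹ * c ∈ Q' := by
    apply M.cent
    intro x hx
    have h := hkey x hx
    have e : x = (M.sec y₀)⁻¹ * (c * x * c⁻¹ * M.sec y₀) := by
      rw [h]; group
    calc (M.sec y₀)⁻¹ * c * x = (M.sec y₀)⁻¹ * (c * x * c⁻¹ * M.sec y₀) * ((M.sec y₀)⁻¹ * c) := by group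
      _ = x * ((M.sec y₀)⁻¹ * c) := by rw [← e]
  have : c = M.sec y₀ * ((M.sec y₀)⁻¹ * c) := by group
  rw [this]
  exact Q'.mul_mem (M.sec_mem y₀) hcomm

/-- The group in which `c` lives. -/
abbrev CC (z : G) : Subgroup G := Subgroup.centralizer ({z} : Set G)

lemma cc_comm (c : CC z) : (c : G) * z = z * c :=
  (Subgroup.mem_centralizer_iff.1 c.2 z rfl).symm

/-- The linear map attached to `c`. -/
noncomputable def lin (c : CC z) : (ι → ZMod 2) →ₗ[ZMod 2] (ι → ZMod 2) :=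
  (AddMonoidHom.mk' (M.A c) (M.A_add (cc_comm c))).toZModLinearMap 2

/-- The matrix attached to `c`. -/
noncomputable def mat (c : CC z) : Matrix ι ι (ZMod 2) := LinearMap.toMatrix' (M.lin c)

lemma mat_mulVec (c : CC z) (v : ι → ZMod 2) : M.mat c *ᵥ v = M.A c v := by
  rw [mat, LinearMap.toMatrix'_mulVec]
  rfl

/-- The matrices as a homomorphism. -/
noncomputable def matHom : CC z →* Matrix ι ι (ZMod 2) where
  toFun := M.mat
  map_one' := by
    apply Matrix.ext_of_mulVec_single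
    intro i
    rw [M.mat_mulVec, Matrix.one_mulVec]
    exact M.A_one _
  map_mul' c d := by
    apply Matrix.ext_of_mulVec_single
    intro i
    rw [← Matrix.mulVec_mulVec, M.mat_mulVec, M.mat_mulVec, M.mat_mulVec]
    exact M.A_mul (cc_comm c) (cc_comm d) _

/-- The representation. -/
noncomputable def psi (q : (ι → ZMod 2) → ZMod 2) (hq : ∀ v, β v v = q v) :
    CC z →* ↥(isometryGroup (ZMod 2) q) :=
  (M.matHom.toHomUnits).codRestrict (isometryGroup (ZMod 2) q) (fun c u v => by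
    show q (M.mat c *ᵥ u) = q u
    rw [M.mat_mulVec, ← hq, ← hq, M.A_q (cc_comm c)])

lemma psi_mulVec (q : (ι → ZMod 2) → ZMod 2) (hq : ∀ v, β v v = q v) (c : CC z) (v : ι → ZMod 2) :
    (((M.psi q hq c : ↥(isometryGroup (ZMod 2) q)) : GL ι (ZMod 2)) : Matrix ι ι (ZMod 2)) *ᵥ v = M.A c v :=
  M.mat_mulVec c v

lemma psi_eq_one (q : (ι → ZMod 2) → ZMod 2) (hq : ∀ v, β v v = q v) (c : CC z) :
    M.psi q hq c = 1 ↔ (c : G) ∈ Q' := by
  constructor
  · intro h
    apply M.mem_of_A (cc_comm c)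
    intro v
    rw [← M.psi_mulVec q hq, h]
    simp
  · intro h
    apply Subtype.ext
    apply Units.ext
    apply Matrix.ext_of_mulVec_single
    intro i
    have h1 := M.psi_mulVec q hq c (Pi.single i 1)
    rw [M.A_of_mem h] at h1
    rw [h1]
    show Pi.single i 1 = (1 : Matrix ι ι (ZMod 2)) *ᵥ Pi.single i 1
    rw [Matrix.one_mulVec]

end Model

end Core

section Card

open Cfsg.Agent.Lib.ThreeT.O6Aut

/-- `|O₆⁻(2)| = 51840`. -/
theorem card_OO : Nat.card OO = 51840 := by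
  have := Cfsg.Agent.S0288.result (F := ZMod 2) (q := 2) (by simp [ZMod.card]) 3 (by norm_num) 1 1 hab_two
  simpa [Finset.prod_range_succ] using this

/-- `|O₆⁺(2)| = 40320`. -/
theorem card_OP : Nat.card ↥(isometryGroup (ZMod 2) (quadFormPlus 3 (ZMod 2))) = 40320 := by
  have := Cfsg.Agent.S0287.result (F := ZMod 2) (q := 2) (by simp [ZMod.card]) 3 (by norm_num)
  simpa [Finset.prod_range_succ] using this

/-- `|Ω₆⁻(2)| = 25920`. -/
theorem card_Omega : Nat.card ↥(commutator OO) = 25920 := by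
  classical
  obtain ⟨K, _, _, hK⟩ : ∃ (K : Type) (_ : Field K) (_ : Fintype K), Fintype.card K = 4 := by
    haveI : Fact (Nat.Prime 2) := ⟨Nat.prime_two⟩
    have hc : Nat.card (GaloisField 2 2) = 2 ^ 2 := GaloisField.card 2 2 (by norm_num)
    haveI : Finite (GaloisField 2 2) := Nat.finite_of_card_ne_zero (by rw [hc]; norm_num)
    letI : Fintype (GaloisField 2 2) := Fintype.ofFinite _
    refine ⟨GaloisField 2 2, inferInstance, inferInstance, ?_⟩
    rw [← Nat.card_eq_fintype_card, hc]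
    norm_num
  obtain ⟨e⟩ := Cfsg.Agent.S0303.result (F := ZMod 2) (K := K) (q := 2) (by simp [ZMod.card]) (by rw [hK]; norm_num) 1 1 hab_two
  have hF : Fintype.card K = 2 ^ 2 := by rw [hK]; norm_num
  have h2 : Nat.card (PSU 4 K 2) = 25920 := by
    have h3 := Cfsg.Agent.Lib.Classical.HermOrders.card_PSU hF 4 (by norm_num)
    have e1 : (2 ^ (4 * (4 - 1) / 2) * ∏ i ∈ Finset.range 4,
      (if Even i then 2 ^ (i + 1) + 1 else 2 ^ (i + 1) - 1) : ℕ) = 77760 := by decide +kernel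
    have e2 : Nat.gcd 4 (2 + 1) = 1 := by norm_num
    rw [e1, e2] at h3
    omega
  set Ω := commutator OO with hΩ
  have hc1 : Nat.card Ω = 25920 * Nat.card (Subgroup.center Ω) := by
    rw [Subgroup.card_eq_card_quotient_mul_card_subgroup (Subgroup.center Ω), ← h2,
      ← Nat.card_congr e.toEquiv]
  have hd : Nat.card Ω ∣ Nat.card OO := Subgroup.card_subgroup_dvd_card _
  rw [hc1, card_OO] at hd
  have hd2 : Nat.card (Subgroup.center Ω) ∣ 2 := by
    have : (25920 : ℕ) * Nat.card (Subgroup.center Ω) ∣ 25920 * 2 := by simpa using hd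
    exact Nat.dvd_of_mul_dvd_mul_left (by norm_num) this
  have hle : Nat.card (Subgroup.center Ω) ≤ 2 := Nat.le_of_dvd (by norm_num) hd2
  have hpos : 0 < Nat.card (Subgroup.center Ω) := Nat.card_pos
  have hcenter : Nat.card (Subgroup.center Ω) = 1 := by
    by_contra hne
    have h3 : Nat.card (Subgroup.center Ω) = 2 := by omega
    have htop : Ω = ⊤ := by
      apply Subgroup.eq_top_of_card_eq
      rw [hc1, h3, card_OO]
    have h4 : ∀ z : Subgroup.center Ω, z = 1 := by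
      intro z
      have h5 : (z.1 : OO) ∈ Subgroup.center OO := by
        rw [Subgroup.mem_center_iff]
        intro g
        have hg : g ∈ Ω := by rw [htop]; exact Subgroup.mem_top g
        have h6 := Subgroup.mem_center_iff.1 z.2 ⟨g, hg⟩
        exact congrArg Subtype.val h6
      rw [center_O] at h5
      apply Subtype.ext
      apply Subtype.ext
      exact Subgroup.mem_bot.1 h5
    have h7 : Nat.card (Subgroup.center Ω) = 1 := Nat.card_eq_one_iff_unique.2 ⟨⟨fun x y => by rw [h4 x, h4 y]⟩, ⟨1⟩⟩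
    omega
  rw [hc1, hcenter]

end Card

section Final

open Cfsg.Agent.Lib.SuzInv.Basic Cfsg.Agent.Lib.LargeExtra.FStar Cfsg.Agent.Lib.PGroups.ExtraIso
open Cfsg.Agent.Lib.F2Quad.Plus Cfsg.Agent.Lib.F2Quad.Types

/-- The bilinear form on `V` with `β v v = qV v`. -/
noncomputable def betaV : LinearMap.BilinForm (ZMod 2) V :=
  LinearMap.mk₂ (ZMod 2)
    (fun u v => u x0 * v y0 + u x1 * v y1 + u z0 * v z0 + u z0 * v z1 + u z1 * v z1)
    (fun a b c => by simp only [Pi.add_apply]; ring)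
    (fun c a b => by simp only [Pi.smul_apply, smul_eq_mul]; ring)
    (fun a b c => by simp only [Pi.add_apply]; ring)
    (fun c a b => by simp only [Pi.smul_apply, smul_eq_mul]; ring)

lemma betaV_apply (u v : V) :
    betaV u v = u x0 * v y0 + u x1 * v y1 + u z0 * v z0 + u z0 * v z1 + u z1 * v z1 := rfl

lemma betaV_self : ∀ v : V, betaV v v = qV v := by
  simp only [betaV_apply]
  decide +kernel

/-- The polar form of `betaV`. -/
noncomputable def fV : LinearMap.BilinForm (ZMod 2) V := betaV + betaV.flip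

lemma fV_apply (u w : V) : fV u w = betaV u w + betaV w u := rfl

lemma fV_nd : fV.Nondegenerate := by
  have key : ∀ u : V, (∀ w : V, (u x0 * w y0 + u x1 * w y1 + u z0 * w z0 + u z0 * w z1 + u z1 * w z1) +
      (w x0 * u y0 + w x1 * u y1 + w z0 * u z0 + w z0 * u z1 + w z1 * u z1) = 0) → u = 0 := by
    decide +kernel
  have key2 : ∀ u : V, (∀ w : V, (w x0 * u y0 + w x1 * u y1 + w z0 * u z0 + w z0 * u z1 + w z1 * u z1) +
      (u x0 * w y0 + u x1 * w y1 + u z0 * w z0 + u z0 * w z1 + u z1 * w z1) = 0) → u = 0 := by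
    decide +kernel
  exact ⟨fun u hu => key u hu, fun u hu => key2 u hu⟩

lemma card_sing : Nat.card {v : V // betaV v v = 0} = 28 := by
  have : Nat.card {v : V // betaV v v = 0} = Nat.card {v : V // qV v = 0} :=
    Nat.card_congr (Equiv.subtypeEquivRight (fun v => by rw [betaV_self]))
  rw [this, Nat.card_eq_fintype_card, Fintype.card_subtype]
  decide +kernel

lemma card_V6 : Nat.card V = 2 ^ 6 := by
  rw [Nat.card_eq_fintype_card]
  simp [ZMod.card]

/-- The kernel and the order of the image. -/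
lemma card_range {G : Type*} [Group G] {ι : Type} [Fintype ι] [DecidableEq ι]
    {z : G} {β : LinearMap.BilinForm (ZMod 2) (ι → ZMod 2)}
    (Q : Subgroup (Subgroup.centralizer ({z} : Set G))) [Q.Normal]
    (M : Model z (Q.map (Subgroup.centralizer ({z} : Set G)).subtype) β)
    (q : (ι → ZMod 2) → ZMod 2) (hq : ∀ v, β v v = q v)
    (e : (Subgroup.centralizer ({z} : Set G)) ⧸ Q ≃* Cfsg.Omega (ZMod 2) (Cfsg.quadFormMinus 2 (ZMod 2) 1 1)) :
    Nat.card (M.psi q hq).range = 25920 := by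
  have hker : (M.psi q hq).ker = Q := by
    ext c
    rw [MonoidHom.mem_ker, M.psi_eq_one]
    constructor
    · rintro ⟨y, hy, hyc⟩
      have : y = c := Subtype.ext hyc
      exact this ▸ hy
    · intro hc
      exact ⟨c, hc, rfl⟩
  rw [← Subgroup.index_ker, hker, Subgroup.index]
  rw [Nat.card_congr e.toEquiv]
  exact card_Omega

/-- Extraspecial transport. -/
theorem isExtra_congr {P P' : Type*} [Group P] [Group P'] [Finite P] (f : P ≃* P')
    (h : IsExtraspecial 2 P) : IsExtraspecial 2 P' := by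
  have : Finite P' := Finite.of_equiv P f.toEquiv
  have := Fact.mk Nat.prime_two
  have hL := extraLike_of_isExtraspecial h
  have hcen : ∀ {x : P}, x ∈ Subgroup.center P → f x ∈ Subgroup.center P' := by
    intro x hx
    rw [Subgroup.mem_center_iff] at hx ⊢
    intro y
    have h := hx (f.symm y)
    have h2 := congrArg f h
    simpa using h2
  have hL' : ExtraLike 2 P' := by
    refine ⟨hL.isPGroup.of_equiv f, ?_, ?_, ?_⟩
    · rw [← hL.card_center]
      exact Nat.card_congr (Subgroup.centerCongr f).symm.toEquiv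
    · intro x y
      have h1 := hcen (hL.comm_mem (f.symm x) (f.symm y))
      simpa [commutatorElement_def] using h1
    · intro x
      have h1 := hcen (hL.pow_mem (f.symm x))
      simpa using h1
  apply hL'.isExtraspecial
  intro hc
  apply not_isMulCommutative_of_isExtraspecial h
  refine ⟨⟨fun a b => ?_⟩⟩
  apply f.injective
  rw [map_mul, map_mul]
  exact hc.is_comm.comm _ _

/-- The model of `Q'`, given the isomorphism. -/
theorem exists_setup {G : Type*} [Group G] [Finite G] (z : G) (hz : orderOf z = 2)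
    (Q : Subgroup (Subgroup.centralizer ({z} : Set G))) [Q.Normal]
    (hF : Cfsg.generalizedFittingSubgroup (Subgroup.centralizer ({z} : Set G)) = Q)
    (hQ : Cfsg.IsExtraspecial 2 Q) (hcard : Nat.card Q = 2 ^ 7)
    (e : (Subgroup.centralizer ({z} : Set G)) ⧸ Q ≃* Cfsg.Omega (ZMod 2) (Cfsg.quadFormMinus 2 (ZMod 2) 1 1)) :
    ∃ S : Cfsg.Agent.Lib.SuzInv.Defs.Setup z, S.Q = Q.map (Subgroup.centralizer ({z} : Set G)).subtype := by
  classical
  haveI : Fact (Nat.Prime 2) := ⟨Nat.prime_two⟩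
  set Q' : Subgroup G := Q.map (Subgroup.centralizer ({z} : Set G)).subtype with hQ'
  let eQ : ↥Q ≃* ↥Q' := Q.equivMapOfInjective (Subgroup.centralizer ({z} : Set G)).subtype Subtype.val_injective
  have hQ'e : Cfsg.IsExtraspecial 2 ↥Q' := isExtra_congr eQ hQ
  have hcard' : Nat.card ↥Q' = 2 ^ 7 := by
    rw [← hcard]
    exact (Nat.card_congr eQ.toEquiv).symm
  have hF' : (Cfsg.generalizedFittingSubgroup ↥(Subgroup.centralizer ({z} : Set G))).map (Subgroup.centralizer ({z} : Set G)).subtype = Q' := by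
    rw [hF]
  obtain ⟨h1, h2, h3⟩ := fstar_facts hz hF' hQ'e
  have hz1 : z ≠ 1 := by
    rintro rfl
    simp at hz
  have hzz : z * z = 1 := by
    have := pow_orderOf_eq_one z
    rw [hz, sq] at this
    exact this
  have hzC : z ∈ Q' := by
    have : z ∈ (Subgroup.center ↥Q').map Q'.subtype := by
      rw [h1]; exact Subgroup.mem_zpowers z
    obtain ⟨y, -, hy⟩ := this
    rw [← hy]
    exact y.2
  have hQc : ∀ x ∈ Q', x * z = z * x := by
    rintro _ ⟨y, -, rfl⟩
    exact (Subgroup.mem_centralizer_iff.1 y.2 z rfl).symm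
  have hQn : ∀ c, c * z = z * c → ∀ x ∈ Q', c * x * c⁻¹ ∈ Q' := by
    rintro c hc _ ⟨y, hy, rfl⟩
    have hcC : c ∈ Subgroup.centralizer ({z} : Set G) := Subgroup.mem_centralizer_iff.2 (by rintro _ rfl; exact hc.symm)
    exact ⟨⟨c, hcC⟩ * y * ⟨c, hcC⟩⁻¹, ‹Q.Normal›.conj_mem y hy _, rfl⟩
  have hcent : ∀ x, (∀ y ∈ Q', x * y = y * x) → x ∈ Q' := by
    intro x hx
    have : x ∈ Subgroup.centralizer (Q' : Set G) :=
      Subgroup.mem_centralizer_iff.2 (fun y hy => (hx y hy).symm)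
    rw [h2] at this
    obtain ⟨y, -, hy⟩ := this
    rw [← hy]
    exact y.2
  obtain ⟨m, hm, hcm, hN⟩ := count_of_isExtraspecial hQ'e
  have hm3 : m = 3 := by
    rw [hcard'] at hcm
    have := Nat.pow_right_injective (le_refl 2) hcm
    omega
  subst hm3
  have hL := extraLike_of_isExtraspecial hQ'e
  rcases hN with hN | hN
  · -- plus type: impossible by orders
    exfalso
    have hLc : ExtraLike 2 (CE (beta0 3)) := CE.extraLike (fm_eq_beta0 3) (fm_nd 3) (card_V 3)
    haveI : Finite (CE (beta0 3)) := Finite.of_equiv _ CE.equivProd.symm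
    obtain ⟨φ⟩ := nonempty_equiv_of_count hL hLc
      (by rw [hcard', CE.card_eq, card_V]; norm_num) (by
        rw [hN, CE.card_sq]
        simp only [beta0_self]
        rw [card_zero 2]
        norm_num)
    let M : Model z Q' (beta0 3) := ⟨φ, fm 3, fm_eq_beta0 3, fm_nd 3, hzC, hz1, hzz, hQc, hQn, hcent⟩
    have hc := card_range Q M (quadFormPlus 3 (ZMod 2)) (beta0_self 3) e
    have hd : Nat.card (M.psi (quadFormPlus 3 (ZMod 2)) (beta0_self 3)).range ∣ Nat.card ↥(isometryGroup (ZMod 2) (quadFormPlus 3 (ZMod 2))) :=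
      Subgroup.card_subgroup_dvd_card _
    rw [hc, card_OP] at hd
    omega
  · have hLc : ExtraLike 2 (CE betaV) := CE.extraLike fV_apply fV_nd card_V6
    haveI : Finite (CE betaV) := Finite.of_equiv _ CE.equivProd.symm
    obtain ⟨φ⟩ := nonempty_equiv_of_count hL hLc
      (by rw [hcard', CE.card_eq, card_V6]; norm_num) (by
        rw [CE.card_sq, card_sing]
        omega)
    let M : Model z Q' betaV := ⟨φ, fV, fV_apply, fV_nd, hzC, hz1, hzz, hQc, hQn, hcent⟩
    have hc := card_range Q M qV betaV_self e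
    set R := (M.psi qV betaV_self).range with hR
    have hidx : R.index = 2 := by
      have h4 := Subgroup.card_mul_index R
      rw [hc, card_OO] at h4
      omega
    have hle : commutator OO ≤ R := Cfsg.Agent.Lib.OrthRefl.IndexTwo.commutator_le_of_index_two R hidx
    have hReq : commutator OO = R := Subgroup.eq_of_le_of_card_ge hle (by rw [hc, card_Omega])
    let memC : ∀ c : G, c * z = z * c → c ∈ Model.CC z := fun c hc =>
      Subgroup.mem_centralizer_iff.2 (by rintro _ rfl; exact hc.symm)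
    let ψ : G → OO := fun c => if h : c * z = z * c then M.psi qV betaV_self ⟨c, memC c h⟩ else 1
    have hψ : ∀ c (h : c * z = z * c), ψ c = M.psi qV betaV_self ⟨c, memC c h⟩ := fun c h => dif_pos h
    refine ⟨{ Q := Q', π := M.pi, ψ := ψ, zz := hzz, z1 := hz1, zQ := hzC, Qc := hQc,
              πmul := fun x hx y hy => M.pi_mul hx hy,
              πsurj := fun v => ⟨M.sec v, M.sec_mem v, M.pi_sec v⟩,
              πker := fun x hx => M.pi_ker hx,
              sq := fun x hx => ?_,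
              ψmul := fun c d hc hd => ?_,
              ψmem := fun c hc => ?_,
              ψsurj := fun w hw => ?_,
              ψker := fun c hc => ?_,
              Qn := hQn,
              πψ := fun c hc x hx => ?_,
              cent := hcent }, rfl⟩
    · rw [M.sq_eq hx, betaV_self]
    · have hcd : c * d * z = z * (c * d) := by
        rw [mul_assoc, hd, ← mul_assoc, hc, mul_assoc]
      rw [hψ c hc, hψ d hd, hψ _ hcd, ← map_mul]
      rfl
    · rw [hψ c hc, hReq]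
      exact ⟨_, rfl⟩
    · rw [hReq] at hw
      obtain ⟨c, rfl⟩ := hw
      refine ⟨c, Model.cc_comm c, ?_⟩
      rw [hψ c (Model.cc_comm c)]
    · rw [hψ c hc]
      exact M.psi_eq_one qV betaV_self ⟨c, memC c hc⟩
    · rw [M.A_spec hc hx, hψ c hc]
      exact (M.psi_mulVec qV betaV_self ⟨c, memC c hc⟩ (M.pi x)).symm

end Final

end Cfsg.Agent.Lib.SuzInv.Rep
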